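import Mathlib
import Cfsg.Agent.Lib.H75.Ch8Count
import Cfsg.Agent.Lib.H75.Ch8Fin
set_option autoImplicit false
set_option linter.all false
open Cfsg
namespace H75.Ch8
universe u
theorem commutator_eq_top {G : Type u} [Group G] [Finite G] {u : G} (h : Hyp u) : commutator G = ⊤ := by
  have h1 := H18.CharQuot.card_hom_eq_index (G := G)
  have h2 : Nat.card (G →* ℂˣ) = 1 := by
    rw [Nat.card_eq_one_iff_unique]
    exact ⟨⟨fun a b => by rw [hom_trivial h a, hom_trivial h b]⟩, ⟨1⟩⟩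
  rw [h2] at h1
  exact Subgroup.index_eq_one.mp h1.symm

theorem main {G : Type u} [Group G] [Finite G] (u : G) (hu : u ≠ 1) (hyp : ∀ χ : Cfsg.IrrCharacter G, (χ : G → ℂ) ≠ (fun _ => (1 : ℂ)) → ((χ : G → ℂ) 1 - (χ : G → ℂ) u = 4 ∨ (χ : G → ℂ) u = 0)) : IsMulCommutative ↥(Cfsg.oddCore G) ∧ ((Nonempty (G ⧸ Cfsg.oddCore G ≃* Matrix.ProjectiveSpecialLinearGroup (Fin 2) (ZMod 5)) ∧ orderOf u = 2) ∨ (Nonempty (G ⧸ Cfsg.oddCore G ≃* Matrix.SpecialLinearGroup (Fin 2) (ZMod 5)) ∧ orderOf u = 4)) := by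
  have h : Hyp u := fun χ hχ h1 => hyp ⟨χ, hχ⟩ h1
  have := Fintype.ofFinite G
  obtain ⟨N, hN, hidx, hun, hsq, hc, hconj⟩ := main_char h hu
  exact (⟨commutator_eq_top h, hN, hidx, hun, hsq, hc, hconj⟩ : H75.Ch8Grp.Data N u).final
end H75.Ch8
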