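import Mathlib
import Cfsg.Agent.Lib.H1.Solv
import Cfsg.Agent.Lib.H1.Coprime2
import Cfsg.Agent.Lib.H1.Frat
import Cfsg.Agent.Lib.H71.Basic
import Cfsg.Agent.Lib.H75.Basic
import Cfsg.Agent.Lib.H75.ClassIndex
import Cfsg.Agent.Lib.H75.PCentral
import Cfsg.Agent.Lib.H75.UnionConj

set_option autoImplicit false
set_option linter.all false

/-! Class sizes of `p`-singular elements: two nontrivial `p`-elements have a common neighbour. -/

namespace H75.ClassGraph

open Subgroup Pointwise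

variable {G : Type*} [Group G]

/-- class size -/
noncomputable def cs (x : G) : ℕ := (centralizer ({x} : Set G)).index

theorem cs_conj (x g : G) : cs (g * x * g⁻¹) = cs x := by
  unfold cs
  rw [H75.ClassIndex.index_centralizer_eq, H75.ClassIndex.index_centralizer_eq]
  refine Nat.card_congr (Equiv.subtypeEquivRight fun y => ?_)
  constructor
  · rintro ⟨h, rfl⟩; exact ⟨h * g, by group⟩
  · rintro ⟨h, rfl⟩; exact ⟨h * g⁻¹, by group⟩

theorem mem_cent {x g : G} : g ∈ centralizer ({x} : Set G) ↔ Commute g x := by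
  rw [mem_centralizer_singleton_iff]; exact Iff.rfl

/-- coprime class sizes and commuting: all conjugates commute -/
theorem spread [Finite G] {a b : G} (hc : Commute a b) (hcop : (cs a).Coprime (cs b)) (g h : G) :
    Commute (g * a * g⁻¹) (h * b * h⁻¹) := by
  obtain ⟨x, hx, y, hy, hxy⟩ := H1.Solv.exists_mul_of_coprime_index
    (H := centralizer ({a} : Set G)) (K := centralizer ({b} : Set G)) hcop (g⁻¹ * h)
  rw [mem_cent] at hx hy
  have hh : h = g * x * y := by rw [mul_assoc, ← hxy]; group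
  have e1 : h * b * h⁻¹ = g * (x * b * x⁻¹) * g⁻¹ := by
    rw [hh]
    calc g * x * y * b * (g * x * y)⁻¹ = g * x * (y * b) * y⁻¹ * x⁻¹ * g⁻¹ := by group
      _ = g * x * (b * y) * y⁻¹ * x⁻¹ * g⁻¹ := by rw [hy.eq]
      _ = g * (x * b * x⁻¹) * g⁻¹ := by group
  have e2 : a = x * a * x⁻¹ := by rw [hx.eq]; group
  have h1 : Commute a (x * b * x⁻¹) := by
    rw [e2]
    show x * a * x⁻¹ * (x * b * x⁻¹) = x * b * x⁻¹ * (x * a * x⁻¹)
    calc x * a * x⁻¹ * (x * b * x⁻¹) = x * (a * b) * x⁻¹ := by group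
      _ = x * (b * a) * x⁻¹ := by rw [hc.eq]
      _ = x * b * x⁻¹ * (x * a * x⁻¹) := by group
  rw [e1]
  show g * a * g⁻¹ * (g * (x * b * x⁻¹) * g⁻¹) = g * (x * b * x⁻¹) * g⁻¹ * (g * a * g⁻¹)
  calc g * a * g⁻¹ * (g * (x * b * x⁻¹) * g⁻¹) = g * (a * (x * b * x⁻¹)) * g⁻¹ := by group
    _ = g * (x * b * x⁻¹ * a) * g⁻¹ := by rw [h1.eq]
    _ = g * (x * b * x⁻¹) * g⁻¹ * (g * a * g⁻¹) := by group

/-- a set stable under a nontrivial `p`-element has cardinality divisible by `p` -/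
theorem dvd_card_of_stable [Finite G] {p : ℕ} [Fact p.Prime] (S : Set G) (t : G) (ht : ∃ k, orderOf t = p ^ k)
    (ht1 : t ≠ 1) (hS : ∀ s ∈ S, t * s ∈ S) : p ∣ Nat.card S := by
  classical
  have hmem : t ∈ MulAction.stabilizer G S := by
    rw [MulAction.mem_stabilizer_iff]
    have hsub : t • S ⊆ S := by
      rintro _ ⟨s, hs, rfl⟩
      exact hS s hs
    refine Set.eq_of_subset_of_ncard_le hsub ?_ (Set.toFinite S)
    rw [Set.ncard_smul_set]
  have hz : zpowers t ≤ MulAction.stabilizer G S := by rwa [zpowers_le]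
  let A : SubMulAction (zpowers t) G :=
    { carrier := S
      smul_mem' := by
        intro c s hs
        have h1 : (c : G) • S = S := MulAction.mem_stabilizer_iff.1 (hz c.2)
        show (c : G) * s ∈ S
        rw [← h1]
        exact Set.smul_mem_smul_set hs }
  have hp : IsPGroup p (zpowers t) := by
    obtain ⟨k, hk⟩ := ht
    exact IsPGroup.of_card (n := k) (by rw [Nat.card_zpowers, hk])
  by_contra hnd
  obtain ⟨s, hs⟩ := hp.nonempty_fixed_point_of_prime_not_dvd_card A hnd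
  have h1 := hs ⟨t, mem_zpowers t⟩
  have h2 : t * (s : G) = s := congrArg Subtype.val h1
  exact ht1 (by simpa using h2)

theorem card_class [Finite G] (x : G) : Nat.card {y : G // ∃ g : G, g * x * g⁻¹ = y} = cs x :=
  (H75.ClassIndex.index_centralizer_eq x).symm

/-- `p`-elements -/
def Pel (p : ℕ) (x : G) : Prop := ∃ k, orderOf x = p ^ k

theorem Pel.conj {p : ℕ} {x : G} (h : Pel p x) (g : G) : Pel p (g * x * g⁻¹) := by
  obtain ⟨k, hk⟩ := h
  exact ⟨k, by rw [← hk]; exact orderOf_injective (MulAut.conj g).toMonoidHom (MulAut.conj g).injective x⟩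

theorem Pel.of_pow {p : ℕ} (hp : p.Prime) {x : G} {k : ℕ} (h : x ^ p ^ k = 1) : Pel p x := by
  obtain ⟨j, -, hj⟩ := (Nat.dvd_prime_pow hp).1 (orderOf_dvd_of_pow_eq_one h)
  exact ⟨j, hj⟩

theorem Pel.mul {p : ℕ} (hp : p.Prime) {x y : G} (hx : Pel p x) (hy : Pel p y) (hc : Commute x y) : Pel p (x * y) := by
  obtain ⟨k, hk⟩ := hx
  obtain ⟨j, hj⟩ := hy
  refine Pel.of_pow hp (k := k + j) ?_
  rw [hc.mul_pow, pow_add, pow_mul, ← hk, pow_orderOf_eq_one, one_pow, one_mul, mul_comm (orderOf x), pow_mul,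
    ← hj, pow_orderOf_eq_one, one_pow]

theorem Pel.inv {p : ℕ} {x : G} (hx : Pel p x) : Pel p x⁻¹ := by
  obtain ⟨k, hk⟩ := hx
  exact ⟨k, by rw [orderOf_inv, hk]⟩

theorem Pel.dvd {p : ℕ} {x : G} (hx : Pel p x) (h1 : x ≠ 1) : p ∣ orderOf x := by
  obtain ⟨k, hk⟩ := hx
  have : k ≠ 0 := by
    rintro rfl
    rw [pow_zero, orderOf_eq_one_iff] at hk
    exact h1 hk
  rw [hk]; exact dvd_pow_self p this

theorem Pel.isPGroup {p : ℕ} {x : G} (hx : Pel p x) : IsPGroup p (zpowers x) := by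
  obtain ⟨k, hk⟩ := hx
  exact IsPGroup.of_card (n := k) (by rw [Nat.card_zpowers, hk])

theorem Pel.of_mem {p : ℕ} {P : Subgroup G} (hP : IsPGroup p P) {x : G} (hx : x ∈ P) [Fact p.Prime] : Pel p x := by
  obtain ⟨k, hk⟩ := (IsPGroup.iff_orderOf.mp hP) ⟨x, hx⟩
  rw [Subgroup.orderOf_mk] at hk
  exact ⟨k, hk⟩

/-- elements of `p`-power order lie in a conjugate of a given Sylow subgroup -/
theorem exists_conj_mem [Finite G] {p : ℕ} [Fact p.Prime] (P : Sylow p G) {x : G} (hx : Pel p x) :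
    ∃ g : G, g * x * g⁻¹ ∈ (P : Subgroup G) := by
  obtain ⟨Q, hQ⟩ := hx.isPGroup.exists_le_sylow
  obtain ⟨g, hg⟩ := MulAction.exists_smul_eq G Q P
  refine ⟨g, ?_⟩
  have : g * x * g⁻¹ ∈ MulAut.conj g • (Q : Subgroup G) := by
    rw [H75.Basic.mem_conj_smul]; exact ⟨x, hQ (mem_zpowers x), rfl⟩
  rw [← hg]; exact this

/-- a Sylow subgroup of `G` inside `M` absorbs `p`-elements of `M` up to conjugation in `M` -/
theorem exists_conj_in [Finite G] {q : ℕ} [Fact q.Prime] (S : Sylow q G) (M B : Subgroup G)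
    (hS : (S : Subgroup G) ≤ M) (hB : IsPGroup q B) (hBM : B ≤ M) :
    ∃ x ∈ M, ∀ b ∈ B, x⁻¹ * b * x ∈ (S : Subgroup G) := by
  have h1 : IsPGroup q (B.subgroupOf M) := hB.comap_of_injective M.subtype (Subgroup.subtype_injective M)
  obtain ⟨T, hT⟩ := h1.exists_le_sylow
  obtain ⟨x, hx⟩ := MulAction.exists_smul_eq M (S.subtype hS) T
  refine ⟨x, x.2, fun b hb => ?_⟩
  have h2 : (⟨b, hBM hb⟩ : M) ∈ (T : Subgroup M) := hT (by rw [Subgroup.mem_subgroupOf]; exact hb)
  rw [← hx] at h2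
  have h3 : (⟨b, hBM hb⟩ : M) ∈ MulAut.conj x • ((S.subtype hS : Sylow q M) : Subgroup M) := h2
  rw [H75.Basic.mem_conj_smul'] at h3
  exact h3

/-- Case I/II common part: a product class is a translate. -/
theorem translate [Finite G] {x y : G} (hxy : Commute x y) (hcop : (cs x).Coprime (cs y))
    (hcw : (cs (x * y)).Coprime (cs x)) (g : G) :
    ∀ y' : G, (∃ h : G, h * y * h⁻¹ = y') → ∃ h : G, h * y * h⁻¹ = (x⁻¹ * (g * x * g⁻¹)) * y' := by
  classical
  have hdvd : cs (x * y) ∣ cs x * cs y := by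
    unfold cs
    rw [← H1.Solv.index_inf_of_coprime (G := G) (H := centralizer ({x} : Set G)) (K := centralizer ({y} : Set G)) hcop]
    apply index_dvd_of_le
    rintro c ⟨hc1, hc2⟩
    exact mem_cent.2 ((mem_cent.1 hc1).mul_right (mem_cent.1 hc2))
  have hdvd' : cs (x * y) ∣ cs y := hcw.dvd_of_dvd_mul_left hdvd
  have hpos : 0 < cs y := Nat.pos_of_ne_zero index_ne_zero_of_finite
  have hle : cs (x * y) ≤ cs y := Nat.le_of_dvd hpos hdvd'
  -- injection of the class of `y` into the class of `x y`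
  let f : {y' : G // ∃ h : G, h * y * h⁻¹ = y'} → {w : G // ∃ h : G, h * (x * y) * h⁻¹ = w} := fun y' =>
    ⟨x * y'.1, by
      obtain ⟨h, hh⟩ := y'.2
      obtain ⟨a, ha, b, hb, hab⟩ := H1.Solv.exists_mul_of_coprime_index
        (H := centralizer ({x} : Set G)) (K := centralizer ({y} : Set G)) hcop h
      rw [mem_cent] at ha hb
      refine ⟨a, ?_⟩
      have e1 : y'.1 = a * y * a⁻¹ := by
        rw [← hh, hab]
        calc a * b * y * (a * b)⁻¹ = a * (b * y) * b⁻¹ * a⁻¹ := by group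
          _ = a * (y * b) * b⁻¹ * a⁻¹ := by rw [hb.eq]
          _ = a * y * a⁻¹ := by group
      rw [e1]
      calc a * (x * y) * a⁻¹ = (a * x) * y * a⁻¹ := by group
        _ = (x * a) * y * a⁻¹ := by rw [ha.eq]
        _ = x * (a * y * a⁻¹) := by group⟩
  have hf : Function.Injective f := by
    intro a b hab
    have := congrArg Subtype.val hab
    exact Subtype.ext (mul_left_cancel this)
  have hfs : Function.Surjective f := by
    have hcard : Nat.card {w : G // ∃ h : G, h * (x * y) * h⁻¹ = w} ≤ Nat.card {y' : G // ∃ h : G, h * y * h⁻¹ = y'} := by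
      rw [card_class, card_class]; exact hle
    exact ((Nat.bijective_iff_injective_and_card f).2 ⟨hf, le_antisymm (Nat.card_le_card_of_injective f hf) hcard⟩).2
  rintro y' ⟨h, hh⟩
  -- `g (x * (g⁻¹ y' g)) g⁻¹ = x^g y'`
  have h1 : ∃ k : G, k * (x * y) * k⁻¹ = (g * x * g⁻¹) * y' := by
    obtain ⟨k, hk⟩ := (f ⟨g⁻¹ * y' * g, g⁻¹ * h, by rw [← hh]; group⟩).2
    refine ⟨g * k, ?_⟩
    have hk' : k * (x * y) * k⁻¹ = x * (g⁻¹ * y' * g) := hk
    calc g * k * (x * y) * (g * k)⁻¹ = g * (k * (x * y) * k⁻¹) * g⁻¹ := by group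
      _ = g * (x * (g⁻¹ * y' * g)) * g⁻¹ := by rw [hk']
      _ = (g * x * g⁻¹) * y' := by group
  obtain ⟨⟨z, hz⟩, hzw⟩ := hfs ⟨_, h1⟩
  obtain ⟨k, hk⟩ := hz
  have h2 : x * z = (g * x * g⁻¹) * y' := congrArg Subtype.val hzw
  refine ⟨k, ?_⟩
  rw [hk, mul_assoc, ← h2]; group

theorem cs_ne_one {x : G} (h : x ∉ center G) : cs x ≠ 1 := by
  intro h1
  apply h
  rw [mem_center_iff]
  intro g
  have : g ∈ centralizer ({x} : Set G) := by rw [index_eq_one.1 h1]; trivial
  exact (mem_cent.1 this).eq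

theorem noncentral [Finite G] {p : ℕ} (hZ : ¬ p ∣ Nat.card ↥(center G)) {x : G} (h : p ∣ orderOf x) :
    x ∉ center G := by
  intro hx
  apply hZ
  refine h.trans ?_
  have := orderOf_dvd_natCard (⟨x, hx⟩ : center G)
  rwa [Subgroup.orderOf_mk] at this

theorem step [Finite G] {p : ℕ} [Fact p.Prime] {x y : G} (hx : Pel p x) (hnc : cs x ≠ 1) (hxy : Commute x y)
    (hcop : (cs x).Coprime (cs y)) (hcw : (cs (x * y)).Coprime (cs x)) :
    p ∣ cs y ∧ ∀ g h : G, Commute (g * x * g⁻¹) (h * x * h⁻¹) := by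
  have hw : ∀ g : G, Commute (g * x * g⁻¹) (x * y) := by
    intro g
    have := spread (a := x) (b := x * y) ((Commute.refl x).mul_right hxy) hcw.symm g 1
    simpa using this
  have hy : ∀ g : G, Commute (g * x * g⁻¹) y := by
    intro g
    have := spread hxy hcop g 1
    simpa using this
  have hxx : ∀ g : G, Commute (g * x * g⁻¹) x := by
    intro g
    have h1 := (hw g).mul_right (hy g).inv_right
    have e : x * y * y⁻¹ = x := by group
    rwa [e] at h1
  refine ⟨?_, ?_⟩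
  · -- choose a moving conjugate
    obtain ⟨g, hg⟩ : ∃ g : G, g * x * g⁻¹ ≠ x := by
      by_contra hcon
      push Not at hcon
      apply hnc
      unfold cs
      rw [index_eq_one, eq_top_iff]
      intro g _
      rw [mem_centralizer_singleton_iff]
      have := hcon g
      calc g * x = (g * x * g⁻¹) * g := by group
        _ = x * g := by rw [this]
    have ht : Pel p (x⁻¹ * (g * x * g⁻¹)) := hx.inv.mul Fact.out (hx.conj g) (hxx g).symm.inv_left
    have ht1 : x⁻¹ * (g * x * g⁻¹) ≠ 1 := by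
      intro h
      exact hg (inv_mul_eq_one.1 h).symm
    have := dvd_card_of_stable (p := p) {y' : G | ∃ h : G, h * y * h⁻¹ = y'} _ ht ht1 (by
      rintro s hs
      exact translate hxy hcop hcw g s hs)
    rwa [show Nat.card {y' : G | ∃ h : G, h * y * h⁻¹ = y'} = cs y from card_class y] at this
  · intro g h
    have h1 := hxx (h⁻¹ * g)
    have e : g * x * g⁻¹ = h * ((h⁻¹ * g) * x * (h⁻¹ * g)⁻¹) * h⁻¹ := by group
    rw [e]
    show h * ((h⁻¹ * g) * x * (h⁻¹ * g)⁻¹) * h⁻¹ * (h * x * h⁻¹) = h * x * h⁻¹ * (h * ((h⁻¹ * g) * x * (h⁻¹ * g)⁻¹) * h⁻¹)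
    calc h * ((h⁻¹ * g) * x * (h⁻¹ * g)⁻¹) * h⁻¹ * (h * x * h⁻¹)
        = h * (((h⁻¹ * g) * x * (h⁻¹ * g)⁻¹) * x) * h⁻¹ := by group
      _ = h * (x * ((h⁻¹ * g) * x * (h⁻¹ * g)⁻¹)) * h⁻¹ := by rw [h1.eq]
      _ = _ := by group

/-- the closure of a commuting family of `p`-elements closed under conjugation lies in every Sylow -/
theorem normal_le_sylow [Finite G] {p : ℕ} [Fact p.Prime] (K : Subgroup G) [K.Normal] (hK : IsPGroup p K) (P : Sylow p G) :
    K ≤ (P : Subgroup G) := by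
  obtain ⟨Q, hQ⟩ := hK.exists_le_sylow
  obtain ⟨g, hg⟩ := MulAction.exists_smul_eq G Q P
  intro k hk
  have h1 : g⁻¹ * k * g ∈ K := by
    have := Subgroup.Normal.conj_mem inferInstance k hk g⁻¹ (H := K)
    simpa using this
  have : k ∈ MulAut.conj g • (Q : Subgroup G) := by
    rw [H75.Basic.mem_conj_smul']; exact hQ h1
  rw [← hg]; exact this

theorem aux [Finite G] {p : ℕ} [Fact p.Prime] (hZ : ¬ p ∣ Nat.card ↥(center G)) {x y : G} (hx : Pel p x)
    (hx1 : x ≠ 1) (hy : Pel p y) (hy1 : y ≠ 1) (hpy : ¬ p ∣ cs y)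
    (NC : ∀ w : G, p ∣ orderOf w → (cs w).Coprime (cs x) ∨ (cs w).Coprime (cs y)) : False := by
  classical
  have hp : p.Prime := Fact.out
  have hxn : cs x ≠ 1 := cs_ne_one (noncentral hZ (hx.dvd hx1))
  have hyn : cs y ≠ 1 := cs_ne_one (noncentral hZ (hy.dvd hy1))
  have hcop : (cs x).Coprime (cs y) := by
    rcases NC x (hx.dvd hx1) with h | h
    · exact absurd ((Nat.coprime_self _).1 h) hxn
    · exact h
  -- a Sylow subgroup centralizing `y`
  obtain ⟨P, -, hP⟩ := H75.PCentral.exists_sylow_between (p := p) (centralizer ({y} : Set G)) ⊥ hpy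
    IsPGroup.of_bot bot_le
  have hPy : ∀ a ∈ (P : Subgroup G), Commute a y := fun a ha => mem_cent.1 (hP ha)
  -- replace `x` by a conjugate in `P`
  obtain ⟨g0, hg0⟩ := exists_conj_mem P hx
  obtain ⟨x', hx'def⟩ : ∃ x', x' = g0 * x * g0⁻¹ := ⟨_, rfl⟩
  rw [← hx'def] at hg0
  have hcs : cs x' = cs x := by rw [hx'def, cs_conj]
  have hx' : Pel p x' := by rw [hx'def]; exact hx.conj g0
  have hx'1 : x' ≠ 1 := by
    rw [hx'def]; intro h
    apply hx1
    have : x = g0⁻¹ * (g0 * x * g0⁻¹) * g0 := by group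
    rw [this, h]; group
  rw [← hcs] at hxn hcop
  simp only [← hcs] at NC
  clear hx'def hcs hx hx1
  have hxP := hg0
  have hxy : Commute x' y := hPy x' hxP
  -- the product
  have hw : Pel p (x' * y) := hx'.mul hp hy hxy
  have hw1 : x' * y ≠ 1 := by
    intro h
    have h1 : y = x'⁻¹ := eq_inv_of_mul_eq_one_right h
    have h2 : cs y = cs x' := by
      rw [h1]
      unfold cs
      congr 1
      ext c
      rw [mem_cent, mem_cent]
      exact Commute.inv_right_iff
    rw [h2] at hcop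
    exact hxn ((Nat.coprime_self _).1 hcop)
  rcases NC _ (hw.dvd hw1) with hI | hII
  · exact hpy (step hx' hxn hxy hcop hI).1
  rw [hxy.eq] at hII
  obtain ⟨hpx, hyy⟩ := step hy hyn hxy.symm hcop.symm hII
  -- from now on: `p ∣ cs x'`, conjugates of `y` commute
  have NC2 : ∀ w : G, p ∣ orderOf w → p ∣ cs w → (cs w).Coprime (cs y) := by
    intro w h1 h2
    rcases NC w h1 with h | h
    · exact absurd (Nat.dvd_gcd h2 hpx) (by rw [h]; exact hp.one_lt.ne' ∘ Nat.dvd_one.1)
    · exact h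
  set Y : Set G := {z | ∃ g : G, g * y * g⁻¹ = z} with hY
  set K := closure Y with hK
  have hKn : K.Normal := by
    rw [← Subgroup.normalizer_eq_top_iff, eq_top_iff]
    intro g _
    refine H75.Basic.mem_normalizer_of_conj_mem _ _ ?_
    intro z hz
    rw [hK] at hz ⊢
    induction hz using Subgroup.closure_induction with
    | mem z hz =>
      obtain ⟨h, rfl⟩ := hz
      exact subset_closure ⟨g * h, by group⟩
    | one => simp
    | mul a b _ _ ha hb =>
      have : g * (a * b) * g⁻¹ = (g * a * g⁻¹) * (g * b * g⁻¹) := by group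
      rw [this]; exact mul_mem ha hb
    | inv a _ ha =>
      have : g * a⁻¹ * g⁻¹ = (g * a * g⁻¹)⁻¹ := by group
      rw [this]; exact inv_mem ha
  have hKcomm : ∀ a ∈ K, ∀ b ∈ K, a * b = b * a := by
    have hYc : ∀ a ∈ Y, ∀ b ∈ Y, a * b = b * a := by
      rintro _ ⟨g, rfl⟩ _ ⟨h, rfl⟩
      exact (hyy g h).eq
    have h1 : K ≤ centralizer (K : Set G) := by
      rw [hK, closure_le]
      intro a ha
      show a ∈ centralizer (closure Y : Set G)
      rw [Subgroup.centralizer_closure]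
      rw [mem_centralizer_iff]
      intro b hb
      exact hYc b hb a ha
    intro a ha b hb
    exact (mem_centralizer_iff.1 (h1 ha) b hb).symm
  have hKp : IsPGroup p K := by
    rw [IsPGroup.iff_orderOf]
    rintro ⟨z, hz⟩
    rw [Subgroup.orderOf_mk]
    have hz' := hz
    rw [hK] at hz
    induction hz using Subgroup.closure_induction with
    | mem z hz => obtain ⟨h, rfl⟩ := hz; exact hy.conj h
    | one => exact ⟨0, by simp⟩
    | mul a b ha' hb' ha hb =>
      exact Pel.mul hp (ha ha') (hb hb') (hKcomm a ha' b hb')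
    | inv a ha' ha => exact Pel.inv (ha ha')
  -- (B) all `p`-elements commute with the conjugates of `y`
  have hB : ∀ g : G, Pel p g → ∀ h : G, Commute g (h * y * h⁻¹) := by
    intro g hg h
    by_cases hg1 : g = 1
    · rw [hg1]; exact Commute.one_left _
    by_cases hpg : p ∣ cs g
    · obtain ⟨k, hk⟩ := exists_conj_mem P hg
      have h1 : Commute (k * g * k⁻¹) y := hPy _ hk
      have h2 := NC2 g (hg.dvd hg1) hpg
      rw [← cs_conj g k] at h2
      have h3 := spread h1 h2 k⁻¹ h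
      have e : k⁻¹ * (k * g * k⁻¹) * k⁻¹⁻¹ = g := by group
      rwa [e] at h3
    · obtain ⟨Q, -, hQ⟩ := H75.PCentral.exists_sylow_between (p := p) (centralizer ({g} : Set G)) ⊥ hpg
        IsPGroup.of_bot bot_le
      have h1 : h * y * h⁻¹ ∈ (Q : Subgroup G) :=
        normal_le_sylow K hKp Q (subset_closure ⟨h, rfl⟩)
      exact (mem_cent.1 (hQ h1)).symm
  have hBy : ∀ g : G, Pel p g → Commute g y := by
    intro g hg
    have := hB g hg 1
    simpa using this
  set L := centralizer ({y} : Set G) with hL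
  -- (C) `p'`-elements of `L` centralize a Sylow subgroup of `G` inside `L`
  have hC : ∀ h ∈ L, ¬ p ∣ orderOf h → ∃ Q : Sylow p G, (Q : Subgroup G) ≤ L ⊓ centralizer ({h} : Set G) := by
    intro h hh hph
    have hyh : Commute y h := (mem_cent.1 hh).symm
    have hco : (orderOf y).Coprime (orderOf h) := by
      obtain ⟨k, hk⟩ := hy
      rw [hk]
      exact Nat.Coprime.pow_left _ ((Nat.Prime.coprime_iff_not_dvd hp).2 hph)
    have key : ∀ {a b : G}, Commute a b → (orderOf a).Coprime (orderOf b) → a ∈ zpowers (a * b) := by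
      intro a b hab hcop
      obtain ⟨N, h1, h2⟩ := Nat.chineseRemainder hcop 1 0
      refine Subgroup.mem_zpowers_iff.2 ⟨(N : ℤ), ?_⟩
      rw [zpow_natCast, hab.mul_pow, pow_eq_pow_iff_modEq.2 h1, pow_one,
        pow_eq_pow_iff_modEq.2 h2, pow_zero, mul_one]
    have hy2 : y ∈ zpowers (y * h) := key hyh hco
    have hh2 : h ∈ zpowers (y * h) := by rw [hyh.eq]; exact key hyh.symm hco.symm
    have hcent : centralizer ({y * h} : Set G) ≤ L ⊓ centralizer ({h} : Set G) := by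
      intro c hc
      have hc' := mem_cent.1 hc
      refine ⟨mem_cent.2 ?_, mem_cent.2 ?_⟩
      · obtain ⟨n, hn⟩ := Subgroup.mem_zpowers_iff.1 hy2
        rw [← hn]; exact hc'.zpow_right n
      · obtain ⟨n, hn⟩ := Subgroup.mem_zpowers_iff.1 hh2
        rw [← hn]; exact hc'.zpow_right n
    have hord : p ∣ orderOf (y * h) := by
      refine (hy.dvd hy1).trans ?_
      exact orderOf_dvd_of_mem_zpowers hy2
    have hdv : cs y ∣ cs (y * h) := index_dvd_of_le (hcent.trans inf_le_left)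
    have hcx : (cs (y * h)).Coprime (cs x') := by
      rcases NC _ hord with h1 | h1
      · exact h1
      · exact absurd (Nat.Coprime.eq_one_of_dvd h1.symm hdv) hyn
    have hnd : ¬ p ∣ cs (y * h) := fun h1 =>
      absurd (Nat.dvd_gcd h1 hpx) (by rw [hcx]; exact hp.one_lt.ne' ∘ Nat.dvd_one.1)
    obtain ⟨Q, -, hQ⟩ := H75.PCentral.exists_sylow_between (p := p) _ ⊥ hnd IsPGroup.of_bot bot_le
    exact ⟨Q, hQ.trans hcent⟩
  -- (D) `P` is normal in `L`
  have hD : L ≤ normalizer ((P : Subgroup G) : Set G) := by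
    by_contra hcon
    have hne : (normalizer ((P : Subgroup G) : Set G)).subgroupOf L ≠ ⊤ := by
      rw [Ne, subgroupOf_eq_top]; exact hcon
    obtain ⟨⟨l, hl⟩, hl2⟩ := H75.UnionConj.exists_not_mem_conj _ hne
    obtain ⟨s, h, hs, hh, hsh, hcomm, hsp, hhp, -, -⟩ := H71.Basic.exists_pPart l (isOfFinOrder_of_finite l) p hp
    have hsL : s ∈ L := (zpowers_le.2 hl) hs
    have hhL : h ∈ L := (zpowers_le.2 hl) hh
    obtain ⟨Q, hQ⟩ := hC h hhL hhp
    -- `Q` is conjugate to `P` in `L`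
    obtain ⟨m, hm, hmQ⟩ := exists_conj_in P L (Q : Subgroup G) hP Q.isPGroup' (hQ.trans inf_le_left)
    have hsp' : Pel p s := hsp
    obtain ⟨d, hd, hdd⟩ := exists_conj_in Q (L ⊓ centralizer ({h} : Set G)) (zpowers s) hQ hsp'.isPGroup
      (by rw [zpowers_le]; exact ⟨hsL, mem_cent.2 hcomm⟩)
    have hd1 : d⁻¹ * s * d ∈ (Q : Subgroup G) := hdd s (mem_zpowers s)
    have hmem : (d * m) ∈ L := L.mul_mem hd.1 hm
    apply hl2 ⟨d * m, hmem⟩
    rw [mem_subgroupOf]
    show (d * m)⁻¹ * l * (d * m) ∈ normalizer ((P : Subgroup G) : Set G)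
    have hdh : Commute d h := mem_cent.1 hd.2
    have e1 : (d * m)⁻¹ * l * (d * m) = (m⁻¹ * (d⁻¹ * s * d) * m) * (m⁻¹ * h * m) := by
      rw [← hsh]
      calc (d * m)⁻¹ * (s * h) * (d * m) = m⁻¹ * (d⁻¹ * s * (h * d)) * m := by group
        _ = m⁻¹ * (d⁻¹ * s * (d * h)) * m := by rw [hdh.eq]
        _ = _ := by group
    rw [e1]
    refine mul_mem (le_normalizer (hmQ _ hd1)) ?_
    -- `h^m` centralizes `P`
    apply centralizer_le_normalizer
    rw [mem_centralizer_iff]
    intro a ha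
    -- `m P m⁻¹ = Q`
    have hPQ : m * a * m⁻¹ ∈ (Q : Subgroup G) := by
      have hle : (Q : Subgroup G) ≤ MulAut.conj m • (P : Subgroup G) := by
        intro b hb
        rw [H75.Basic.mem_conj_smul']
        exact hmQ b hb
      have heq : (Q : Subgroup G) = MulAut.conj m • (P : Subgroup G) := by
        apply Subgroup.eq_of_le_of_card_ge hle
        have h1 : Nat.card (Q : Subgroup G) = Nat.card (P : Subgroup G) := by
          rw [Sylow.card_eq_multiplicity Q, Sylow.card_eq_multiplicity P]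
        have h2 : Nat.card (MulAut.conj m • (P : Subgroup G) : Subgroup G) = Nat.card (P : Subgroup G) :=
          Nat.card_congr (Subgroup.equivSMul (MulAut.conj m) (P : Subgroup G)).symm.toEquiv
        rw [h1, h2]
      rw [heq, H75.Basic.mem_conj_smul]
      exact ⟨a, ha, rfl⟩
    have h3 : Commute (m * a * m⁻¹) h := mem_cent.1 (hQ hPQ).2
    calc a * (m⁻¹ * h * m) = m⁻¹ * (m * a * m⁻¹ * h) * m := by group
      _ = m⁻¹ * (h * (m * a * m⁻¹)) * m := by rw [h3.eq]
      _ = m⁻¹ * h * m * a := by group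
  -- Sylow subgroups inside `L` are equal to `P`
  have hSyl : ∀ Q : Sylow p G, (Q : Subgroup G) ≤ L → (Q : Subgroup G) ≤ (P : Subgroup G) := by
    intro Q hQ q hq
    obtain ⟨m, hm, hmQ⟩ := exists_conj_in P L (Q : Subgroup G) hP Q.isPGroup' hQ
    have h1 := hmQ q hq
    have h2 := (mem_normalizer_iff.1 (hD hm) (m⁻¹ * q * m)).1 h1
    have e : m * (m⁻¹ * q * m) * m⁻¹ = q := by group
    rwa [e] at h2
  have hpP : ∀ g : G, Pel p g → g ∈ (P : Subgroup G) := by
    intro g hg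
    obtain ⟨Q, hQ⟩ := hg.isPGroup.exists_le_sylow
    refine hSyl Q ?_ (hQ (mem_zpowers g))
    intro q hq
    exact mem_cent.2 (hBy q (Pel.of_mem Q.isPGroup' hq))
  have hPn : (P : Subgroup G).Normal := by
    constructor
    intro a ha g
    exact hpP _ ((Pel.of_mem P.isPGroup' ha).conj g)
  have hyP : y ∈ (P : Subgroup G) := hpP y hy
  -- all Sylow subgroups equal
  have hQP : ∀ Q : Sylow p G, (P : Subgroup G) ≤ (Q : Subgroup G) := by
    intro Q
    exact normal_le_sylow (P : Subgroup G) P.isPGroup' Q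
  -- (E) `p'`-elements of `L` centralize `P`
  have hE : ∀ h ∈ L, ¬ p ∣ orderOf h → ∀ a ∈ (P : Subgroup G), Commute a h := by
    intro h hh hph a ha
    obtain ⟨Q, hQ⟩ := hC h hh hph
    exact mem_cent.1 (hQ (hQP Q ha)).2
  -- (G)
  have hG : ∀ s ∈ (P : Subgroup G), (∃ t ∈ (P : Subgroup G), ¬ Commute t s) → ∀ g : G,
      ∃ q ∈ (P : Subgroup G), g * s * g⁻¹ = q * s * q⁻¹ := by
    rintro s hs ⟨t, ht, hts⟩ g
    have hsp : Pel p s := Pel.of_mem P.isPGroup' hs
    have hs1 : s ≠ 1 := by rintro rfl; exact hts (Commute.one_right _)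
    have hps : p ∣ cs s := by
      by_contra hnd
      obtain ⟨Q, -, hQ⟩ := H75.PCentral.exists_sylow_between (p := p) (centralizer ({s} : Set G)) ⊥ hnd
        IsPGroup.of_bot bot_le
      exact hts (mem_cent.1 (hQ (hQP Q ht)))
    have hco := NC2 s (hsp.dvd hs1) hps
    obtain ⟨l, hl, c, hc, hlc⟩ := H1.Solv.exists_mul_of_coprime_index
      (H := centralizer ({y} : Set G)) (K := centralizer ({s} : Set G)) hco.symm g
    obtain ⟨a, h, ha, hh, hah, hcomm, hap, hhp, -, -⟩ := H71.Basic.exists_pPart l (isOfFinOrder_of_finite l) p hp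
    have haP : a ∈ (P : Subgroup G) := hpP a hap
    have hhL : h ∈ L := (zpowers_le.2 hl) hh
    have h1 : Commute s h := hE h hhL hhp s hs
    have h2 : Commute c s := mem_cent.1 hc
    refine ⟨a, haP, ?_⟩
    rw [hlc, ← hah]
    calc a * h * c * s * (a * h * c)⁻¹ = a * h * (c * s) * c⁻¹ * h⁻¹ * a⁻¹ := by group
      _ = a * h * (s * c) * c⁻¹ * h⁻¹ * a⁻¹ := by rw [h2.eq]
      _ = a * (h * s) * h⁻¹ * a⁻¹ := by group
      _ = a * (s * h) * h⁻¹ * a⁻¹ := by rw [h1.eq]
      _ = a * s * a⁻¹ := by group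
  -- (H)
  set D := (_root_.commutator (P : Subgroup G)).map (P : Subgroup G).subtype with hDdef
  have hDmem : ∀ a ∈ (P : Subgroup G), ∀ b ∈ (P : Subgroup G), a * b * a⁻¹ * b⁻¹ ∈ D := by
    intro a ha b hb
    refine ⟨⟨a, ha⟩ * ⟨b, hb⟩ * ⟨a, ha⟩⁻¹ * ⟨b, hb⟩⁻¹, ?_, rfl⟩
    exact Subgroup.commutator_mem_commutator (mem_top _) (mem_top _)
  have hDconj : ∀ a ∈ (P : Subgroup G), ∀ d ∈ D, a * d * a⁻¹ ∈ D := by
    rintro a ha _ ⟨d, hd, rfl⟩
    exact ⟨⟨a, ha⟩ * d * ⟨a, ha⟩⁻¹, Subgroup.Normal.conj_mem inferInstance d hd _, rfl⟩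
  have hG' : ∀ s ∈ (P : Subgroup G), (∃ t ∈ (P : Subgroup G), ¬ Commute t s) → ∀ g : G,
      s⁻¹ * (g * s * g⁻¹) ∈ D := by
    intro s hs ht g
    obtain ⟨q, hq, hqs⟩ := hG s hs ht g
    rw [hqs]
    have := hDmem s⁻¹ (inv_mem hs) q hq
    have e : s⁻¹ * (q * s * q⁻¹) = s⁻¹ * q * s⁻¹⁻¹ * q⁻¹ := by group
    rw [e]; exact this
  have hxnc : ∃ t ∈ (P : Subgroup G), ¬ Commute t x' := by
    by_contra hcon
    push Not at hcon
    have hle : (P : Subgroup G) ≤ centralizer ({x'} : Set G) := fun t ht => mem_cent.2 (hcon t ht)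
    exact P.not_dvd_index (hpx.trans (index_dvd_of_le hle))
  have hH : ∀ s ∈ (P : Subgroup G), ∀ g : G, s⁻¹ * (g * s * g⁻¹) ∈ D := by
    intro s hs g
    by_cases hnc : ∃ t ∈ (P : Subgroup G), ¬ Commute t s
    · exact hG' s hs hnc g
    · push Not at hnc
      obtain ⟨t, ht, htx⟩ := hxnc
      have hsx : ∃ t ∈ (P : Subgroup G), ¬ Commute t (s * x') := by
        refine ⟨t, ht, fun h => htx ?_⟩
        have h1 := (hnc t ht).inv_right.mul_right h
        have e : s⁻¹ * (s * x') = x' := by group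
        rwa [e] at h1
      have hu := hG' (s * x') (mul_mem hs hxP) hsx g
      have hv := hG' x' hxP ⟨t, ht, htx⟩ g
      have e : s⁻¹ * (g * s * g⁻¹) = (x' * ((s * x')⁻¹ * (g * (s * x') * g⁻¹)) * x'⁻¹) *
          (x' * (x'⁻¹ * (g * x' * g⁻¹)) * x'⁻¹)⁻¹ := by group
      rw [e]
      exact mul_mem (hDconj x' hxP _ hu) (inv_mem (hDconj x' hxP _ hv))
  -- (I)
  have hI' : ∀ h : G, ¬ p ∣ orderOf h → h ∈ centralizer ((P : Subgroup G) : Set G) := by
    intro h hph
    have hPnil : Group.IsNilpotent (P : Subgroup G) := P.isPGroup'.isNilpotent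
    have h1 := H1.Coprime2.le_centralizer_of_frattini (zpowers h) (P : Subgroup G) (by
        rw [Nat.card_zpowers]
        have hF : IsPGroup p (frattini (P : Subgroup G)) := P.isPGroup'.to_subgroup _
        obtain ⟨k, hk⟩ := IsPGroup.iff_card.mp hF
        rw [hk]
        exact Nat.Coprime.pow_right k ((Nat.Prime.coprime_iff_not_dvd hp).2 hph).symm) (by
        intro a _ k hk
        have h2 := hDconj k hk _ (hH k hk a)
        have e : k * (k⁻¹ * (a * k * a⁻¹)) * k⁻¹ = a * k * a⁻¹ * k⁻¹ := by group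
        rw [e] at h2
        exact Subgroup.map_mono H1.Frat.commutator_le_frattini h2)
    exact h1 (mem_zpowers h)
  -- (J)
  apply noncentral hZ (hy.dvd hy1)
  rw [mem_center_iff]
  intro g
  obtain ⟨a, h, ha, hh, hah, hcomm, hap, hhp, -, -⟩ := H71.Basic.exists_pPart g (isOfFinOrder_of_finite g) p hp
  have h1 : Commute a y := hBy a hap
  have h2 : Commute h y := (mem_centralizer_iff.1 (hI' h hhp) y hyP).symm
  have h3 := h1.mul_left h2
  rw [hah] at h3
  exact h3.eq

/-- Two nontrivial `p`-elements have a common neighbour. -/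
theorem main [Finite G] {p : ℕ} [Fact p.Prime] (hZ : ¬ p ∣ Nat.card ↥(center G)) {x y : G} (hx : Pel p x)
    (hx1 : x ≠ 1) (hy : Pel p y) (hy1 : y ≠ 1) :
    ∃ w : G, p ∣ orderOf w ∧ ¬ (cs w).Coprime (cs x) ∧ ¬ (cs w).Coprime (cs y) := by
  by_contra hcon
  have NC : ∀ w : G, p ∣ orderOf w → (cs w).Coprime (cs x) ∨ (cs w).Coprime (cs y) := by
    intro w hw
    by_contra h
    push Not at h
    exact hcon ⟨w, hw, h.1, h.2⟩
  have hxn : cs x ≠ 1 := cs_ne_one (noncentral hZ (hx.dvd hx1))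
  have hcop : (cs x).Coprime (cs y) := by
    rcases NC x (hx.dvd hx1) with h | h
    · exact absurd ((Nat.coprime_self _).1 h) hxn
    · exact h
  by_cases hpy : p ∣ cs y
  · have hpx : ¬ p ∣ cs x := fun h =>
      absurd (Nat.dvd_gcd h hpy) (by rw [hcop]; exact (Fact.out : p.Prime).one_lt.ne' ∘ Nat.dvd_one.1)
    exact aux hZ hy hy1 hx hx1 hpx (fun w hw => (NC w hw).symm)
  · exact aux hZ hx hx1 hy hy1 hpy NC

end H75.ClassGraph
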