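import Mathlib

set_option autoImplicit false
set_option linter.all false

/-! Counting fixed points and elements of order `p`. -/

namespace H75.FixCount

open MulAction

section fix

variable {G : Type*} [Group G] (α : Type*) [MulAction G α]

/-- number of fixed points -/
noncomputable def fx (g : G) : ℕ := Nat.card (fixedBy α g)

variable {α}

/-- fixed `k`-tuples of distinct points -/
def fixedEmb (k : ℕ) (g : G) : fixedBy (Fin k ↪ α) g ≃ (Fin k ↪ fixedBy α g) where
  toFun x := ⟨fun i => ⟨x.1 i, by
    have h := x.2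
    exact congrArg (fun f : Fin k ↪ α => f i) h⟩, fun i j h => x.1.injective (congrArg Subtype.val h)⟩
  invFun y := ⟨y.trans (Function.Embedding.subtype _), by
    rw [mem_fixedBy]
    ext i
    exact (y i).2⟩
  left_inv x := by
    ext i
    rfl
  right_inv y := by
    ext i
    rfl

theorem sum_desc [Fintype G] [Finite α] (k : ℕ) :
    ∑ g : G, (fx α g).descFactorial k =
      Nat.card (MulAction.orbitRel.Quotient G (Fin k ↪ α)) * Nat.card G := by
  classical
  have := Fintype.ofFinite α
  have := Fintype.ofFinite (MulAction.orbitRel.Quotient G (Fin k ↪ α))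
  have : Fintype (Fin k ↪ α) := Fintype.ofFinite _
  have : ∀ g : G, Fintype (fixedBy (Fin k ↪ α) g) := fun g => Fintype.ofFinite _
  have h := MulAction.sum_card_fixedBy_eq_card_orbits_mul_card_group G (Fin k ↪ α)
  rw [Nat.card_eq_fintype_card, Nat.card_eq_fintype_card, ← h]
  refine Finset.sum_congr rfl fun g _ => ?_
  have : Fintype (fixedBy α g) := Fintype.ofFinite _
  rw [← Nat.card_eq_fintype_card, Nat.card_congr (fixedEmb k g), Nat.card_eq_fintype_card,
    Fintype.card_embedding_eq, Fintype.card_fin, fx, Nat.card_eq_fintype_card]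

theorem card_orbits_of_trans [Finite α] {k : ℕ} (hk : k ≤ Nat.card α)
    (h : MulAction.IsMultiplyPretransitive G α k) :
    Nat.card (MulAction.orbitRel.Quotient G (Fin k ↪ α)) = 1 := by
  classical
  have := Fintype.ofFinite α
  haveI : MulAction.IsPretransitive G (Fin k ↪ α) := h
  obtain ⟨x⟩ : Nonempty (Fin k ↪ α) :=
    Function.Embedding.nonempty_of_card_le (by rw [Fintype.card_fin, ← Nat.card_eq_fintype_card]; exact hk)
  rw [Nat.card_eq_one_iff_unique]
  refine ⟨⟨fun a b => ?_⟩, ⟨Quotient.mk'' x⟩⟩
  induction a using Quotient.inductionOn'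
  induction b using Quotient.inductionOn'
  apply Quotient.sound'
  rw [MulAction.orbitRel_apply]
  exact MulAction.exists_smul_eq G _ _

theorem desc_two (n : ℕ) : ((n.descFactorial 2 : ℕ) : ℤ) = n * (n - 1) := by
  rcases n with _ | _ | n
  · simp
  · simp
  · simp [Nat.descFactorial_succ]
    ring

theorem desc_three (n : ℕ) : ((n.descFactorial 3 : ℕ) : ℤ) = n * (n - 1) * (n - 2) := by
  rcases n with _ | _ | _ | n
  · simp
  · simp
  · simp
  · simp [Nat.descFactorial_succ]
    ring

theorem fx_one : fx α (1 : G) = Nat.card α := by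
  unfold fx
  rw [MulAction.fixedBy_one_eq_univ, Nat.card_univ]

theorem fx_le [Finite α] (g : G) : fx α g ≤ Nat.card α := Nat.card_le_card_of_injective _ Subtype.val_injective

theorem fx_lt [Finite α] [FaithfulSMul G α] {g : G} (hg : g ≠ 1) : fx α g < Nat.card α := by
  apply lt_of_le_of_ne (fx_le g)
  intro h
  apply hg
  apply FaithfulSMul.eq_of_smul_eq_smul (α := α)
  intro a
  rw [one_smul]
  by_contra hne
  have h1 : (fixedBy α g).ncard < Nat.card α := by
    rw [← Set.ncard_univ]
    apply Set.ncard_lt_ncard _ (Set.toFinite _)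
    rw [Set.ssubset_univ_iff]
    intro h2
    have h3 : a ∈ fixedBy α g := by rw [h2]; trivial
    exact hne h3
  exact absurd h (ne_of_lt h1)

end fix

section order

variable {G : Type*} [Group G] [Finite G] {p : ℕ} [Fact p.Prime]

theorem card_sylow_all (P : Sylow p G) (hP : Nat.card P = p) (Q : Sylow p G) : Nat.card Q = p := by
  refine Eq.trans ?_ hP
  rw [P.card_eq_multiplicity, Q.card_eq_multiplicity]

theorem orderOf_mem (P : Sylow p G) (hP : Nat.card P = p) (Q : Sylow p G) {x : G} (hx : x ∈ Q) (hx1 : x ≠ 1) :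
    orderOf x = p := by
  have hp : p.Prime := Fact.out
  have h1 : orderOf (⟨x, hx⟩ : (Q : Subgroup G)) ∣ Nat.card Q := orderOf_dvd_natCard _
  rw [Subgroup.orderOf_mk, card_sylow_all P hP Q] at h1
  rcases (Nat.dvd_prime hp).1 h1 with h | h
  · rw [orderOf_eq_one_iff] at h
    exact absurd h hx1
  · exact h

theorem eq_zpowers (P : Sylow p G) (hP : Nat.card P = p) (Q : Sylow p G) {x : G} (hx : x ∈ Q) (hx1 : x ≠ 1) :
    (Q : Subgroup G) = Subgroup.zpowers x := by
  symm
  apply Subgroup.eq_of_le_of_card_ge (by rwa [Subgroup.zpowers_le])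
  rw [Nat.card_zpowers, orderOf_mem P hP Q hx hx1, card_sylow_all P hP Q]

/-- the elements of order `p` are counted by the Sylow subgroups -/
theorem card_order (P : Sylow p G) (hP : Nat.card P = p) :
    Nat.card {g : G // orderOf g = p} * Nat.card (Subgroup.normalizer ((P : Subgroup G) : Set G)) =
      (p - 1) * Nat.card G := by
  classical
  have hp : p.Prime := Fact.out
  have := Fintype.ofFinite (Sylow p G)
  let f : (Σ Q : Sylow p G, {x : (Q : Subgroup G) // x ≠ 1}) → {g : G // orderOf g = p} :=
    fun y => ⟨((y.2.1 : (y.1 : Subgroup G)) : G), orderOf_mem P hP y.1 y.2.1.2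
      (fun h => y.2.2 (Subtype.ext h))⟩
  have hf : Function.Bijective f := by
    constructor
    · rintro ⟨Q, x, hx⟩ ⟨Q', x', hx'⟩ h
      have h1 : (x : G) = (x' : G) := congrArg Subtype.val h
      have hQ : Q = Q' := by
        apply Sylow.ext
        rw [eq_zpowers P hP Q x.2 (fun h => hx (Subtype.ext h)),
          eq_zpowers P hP Q' x'.2 (fun h => hx' (Subtype.ext h)), h1]
      subst hQ
      have h2 : x = x' := Subtype.ext h1
      subst h2
      rfl
    · rintro ⟨g, hg⟩
      have h1 : IsPGroup p (Subgroup.zpowers g) := by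
        apply IsPGroup.of_card (n := 1)
        rw [Nat.card_zpowers, hg, pow_one]
      obtain ⟨Q, hQ⟩ := h1.exists_le_sylow
      refine ⟨⟨Q, ⟨⟨g, hQ (Subgroup.mem_zpowers g)⟩, ?_⟩⟩, rfl⟩
      intro h
      have h2 : g = 1 := congrArg Subtype.val h
      rw [h2, orderOf_one] at hg
      exact hp.one_lt.ne hg
  rw [← Nat.card_congr (Equiv.ofBijective f hf), Nat.card_sigma]
  have h1 : ∀ Q : Sylow p G, Nat.card {x : (Q : Subgroup G) // x ≠ 1} = p - 1 := by
    intro Q
    have h2 : Nat.card {x : (Q : Subgroup G) // x = 1} + Nat.card {x : (Q : Subgroup G) // x ≠ 1} = Nat.card Q := by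
      rw [← Nat.card_sum]
      exact Nat.card_congr (Equiv.sumCompl _)
    have h3 : Nat.card {x : (Q : Subgroup G) // x = 1} = 1 := by simp
    rw [card_sylow_all P hP Q, h3] at h2
    omega
  rw [Finset.sum_congr rfl fun Q _ => h1 Q, Finset.sum_const, Finset.card_univ, smul_eq_mul,
    ← Nat.card_eq_fintype_card (α := Sylow p G), Sylow.card_eq_index_normalizer P, mul_comm _ (p - 1), mul_assoc]
  congr 1
  exact Subgroup.index_mul_card _

end order

end H75.FixCount
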