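import Mathlib

set_option linter.all false

/-! Principal ideal theorem (group form): transfer into the derived subgroup is trivial. -/

namespace H75.PIT

open MonoidAlgebra Finset
open scoped commutatorElement

variable {G Q : Type*} [Group G] [CommGroup Q]

/-- additive extension of a function to the integral group ring -/
noncomputable def ext {M A : Type*} [AddCommGroup A] (φ : M → A) : MonoidAlgebra ℤ M →+ A :=
  (Finsupp.liftAddHom fun x => (zmultiplesHom A (φ x))).comp coeffAddEquiv.toAddMonoidHom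

theorem ext_single {M A : Type*} [AddCommGroup A] (φ : M → A) (x : M) (r : ℤ) :
    ext φ (single x r) = r • φ x := by
  simp [ext]

theorem ext_of {M A : Type*} [Monoid M] [AddCommGroup A] (φ : M → A) (x : M) :
    ext φ (of ℤ M x) = φ x := by
  simp [ext]

theorem ext_sub_one_mul {A : Type*} [AddCommGroup A] (f : G →* Q) (φ : G → A) (T : G → Q → A)
    (hφ : ∀ g x, φ (g * x) - φ x = T g (f x)) (g : G) (z : MonoidAlgebra ℤ G) :
    ext φ ((of ℤ G g - 1) * z) = ext (T g) (mapDomainRingHom ℤ f z) := by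
  induction z using induction_linear with
  | zero => simp
  | add x y hx hy => rw [mul_add, map_add, map_add, map_add, hx, hy]
  | single m r =>
    rw [sub_mul, one_mul, map_sub]
    have h1 : (of ℤ G g) * single m r = single (g * m) r := by simp
    have h2 : mapDomainRingHom ℤ f (single m r) = single (f m) r := by simp
    rw [h1, h2, ext_single, ext_single, ext_single, ← hφ, smul_sub]

/-- augmentation -/
noncomputable def aug (M : Type*) [Monoid M] : MonoidAlgebra ℤ M →+* ℤ :=
  (MonoidAlgebra.lift ℤ ℤ M (1 : M →* ℤ)).toRingHom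

theorem aug_of (M : Type*) [Monoid M] (x : M) : aug M (of ℤ M x) = 1 := by
  simp [aug]

theorem aug_single (M : Type*) [Monoid M] (x : M) (r : ℤ) : aug M (single x r) = r := by
  simp [aug]

theorem aug_map (f : G →* Q) (z : MonoidAlgebra ℤ G) :
    aug Q (mapDomainRingHom ℤ f z) = aug G z := by
  induction z using induction_linear with
  | zero => simp
  | add x y hx hy => rw [map_add, map_add, map_add, hx, hy]
  | single m r =>
    have h2 : mapDomainRingHom ℤ f (single m r) = single (f m) r := by simp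
    rw [h2, aug_single, aug_single]

theorem L1 {κ : Type*} [Fintype κ] [DecidableEq κ] (σ : κ → G)
    (hσ : Subgroup.closure (Set.range σ) = ⊤) (a : G) :
    ∃ θ : κ → MonoidAlgebra ℤ G, of ℤ G a - 1 = ∑ l, (of ℤ G (σ l) - 1) * θ l := by
  have ha : a ∈ Subgroup.closure (Set.range σ) := by rw [hσ]; trivial
  induction ha using Subgroup.closure_induction with
  | mem x hx =>
    obtain ⟨k, rfl⟩ := hx
    refine ⟨fun l => if l = k then 1 else 0, ?_⟩
    simp
  | one => exact ⟨fun _ => 0, by rw [map_one]; simp⟩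
  | mul x y _ _ hx hy =>
    obtain ⟨θ, hθ⟩ := hx
    obtain ⟨θ', hθ'⟩ := hy
    refine ⟨fun l => θ l * of ℤ G y + θ' l, ?_⟩
    have h1 : of ℤ G (x * y) - 1 = (of ℤ G x - 1) * of ℤ G y + (of ℤ G y - 1) := by
      rw [map_mul]; noncomm_ring
    rw [h1, hθ, hθ', Finset.sum_mul, ← Finset.sum_add_distrib]
    refine Finset.sum_congr rfl fun l _ => ?_
    rw [mul_add, mul_assoc]
  | inv x _ hx =>
    obtain ⟨θ, hθ⟩ := hx
    refine ⟨fun l => -(θ l * of ℤ G x⁻¹), ?_⟩
    have h1 : of ℤ G x⁻¹ - 1 = -((of ℤ G x - 1) * of ℤ G x⁻¹) := by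
      have : of ℤ G x * of ℤ G x⁻¹ = 1 := by rw [← map_mul, mul_inv_cancel, map_one]
      rw [sub_mul, this, one_mul, neg_sub]
    rw [h1, hθ, Finset.sum_mul, ← Finset.sum_neg_distrib]
    refine Finset.sum_congr rfl fun l _ => ?_
    rw [mul_neg, mul_assoc]

theorem L2 {κ : Type*} [Fintype κ] [DecidableEq κ] (σ : κ → G)
    (hσ : Subgroup.closure (Set.range σ) = ⊤) (x : G) (hx : x ∈ commutator G) :
    ∃ η : κ → MonoidAlgebra ℤ G, (∀ l, aug G (η l) = 0) ∧
      of ℤ G x - 1 = ∑ l, (of ℤ G (σ l) - 1) * η l := by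
  rw [commutator_eq_closure] at hx
  induction hx using Subgroup.closure_induction with
  | mem x hx =>
    obtain ⟨a, b, rfl⟩ := hx
    obtain ⟨θ, hθ⟩ := L1 σ hσ a
    obtain ⟨θ', hθ'⟩ := L1 σ hσ b
    refine ⟨fun l => (θ l * (of ℤ G b - 1) - θ' l * (of ℤ G a - 1)) * of ℤ G (a⁻¹ * b⁻¹), ?_, ?_⟩
    · intro l
      simp only [map_mul, map_sub, aug_of, map_one]
      simp
    · have h1 : of ℤ G ⁅a, b⁆ - 1 =
          ((of ℤ G a - 1) * (of ℤ G b - 1) - (of ℤ G b - 1) * (of ℤ G a - 1)) *
            of ℤ G (a⁻¹ * b⁻¹) := by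
        have e1 : (of ℤ G a - 1) * (of ℤ G b - 1) - (of ℤ G b - 1) * (of ℤ G a - 1) =
            of ℤ G (a * b) - of ℤ G (b * a) := by
          rw [map_mul, map_mul]; noncomm_ring
        rw [e1, sub_mul, ← map_mul, ← map_mul]
        have e2 : a * b * (a⁻¹ * b⁻¹) = ⁅a, b⁆ := by rw [commutatorElement_def]; group
        have e3 : b * a * (a⁻¹ * b⁻¹) = 1 := by group
        rw [e2, e3, map_one]
      have h2 : (of ℤ G a - 1) * (of ℤ G b - 1) - (of ℤ G b - 1) * (of ℤ G a - 1) =
          ∑ l, (of ℤ G (σ l) - 1) * (θ l * (of ℤ G b - 1) - θ' l * (of ℤ G a - 1)) := by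
        conv_lhs => rw [show (of ℤ G a - 1) * (of ℤ G b - 1) =
          (∑ l, (of ℤ G (σ l) - 1) * θ l) * (of ℤ G b - 1) by rw [hθ],
          show (of ℤ G b - 1) * (of ℤ G a - 1) =
          (∑ l, (of ℤ G (σ l) - 1) * θ' l) * (of ℤ G a - 1) by rw [hθ']]
        rw [Finset.sum_mul, Finset.sum_mul, ← Finset.sum_sub_distrib]
        refine Finset.sum_congr rfl fun l _ => ?_
        rw [mul_assoc, mul_assoc, ← mul_sub]
      rw [h1, h2, Finset.sum_mul]
      refine Finset.sum_congr rfl fun l _ => ?_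
      rw [mul_assoc]
  | one => exact ⟨fun _ => 0, by simp, by rw [map_one]; simp⟩
  | mul x y _ _ hx hy =>
    obtain ⟨θ, hθ0, hθ⟩ := hx
    obtain ⟨θ', hθ'0, hθ'⟩ := hy
    refine ⟨fun l => θ l * of ℤ G y + θ' l, fun l => by
      rw [map_add, map_mul, hθ0, hθ'0]; simp, ?_⟩
    have h1 : of ℤ G (x * y) - 1 = (of ℤ G x - 1) * of ℤ G y + (of ℤ G y - 1) := by
      rw [map_mul]; noncomm_ring
    rw [h1, hθ, hθ', Finset.sum_mul, ← Finset.sum_add_distrib]
    refine Finset.sum_congr rfl fun l _ => ?_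
    rw [mul_add, mul_assoc]
  | inv x _ hx =>
    obtain ⟨θ, hθ0, hθ⟩ := hx
    refine ⟨fun l => -(θ l * of ℤ G x⁻¹), fun l => by
      rw [map_neg, map_mul, hθ0]; simp, ?_⟩
    have h1 : of ℤ G x⁻¹ - 1 = -((of ℤ G x - 1) * of ℤ G x⁻¹) := by
      have : of ℤ G x * of ℤ G x⁻¹ = 1 := by rw [← map_mul, mul_inv_cancel, map_one]
      rw [sub_mul, this, one_mul, neg_sub]
    rw [h1, hθ, Finset.sum_mul, ← Finset.sum_neg_distrib]
    refine Finset.sum_congr rfl fun l _ => ?_
    rw [mul_neg, mul_assoc]

theorem key [Fintype Q] {κ : Type*} [Fintype κ] [DecidableEq κ] (f : G →* Q)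
    (hf : Function.Surjective f) {A : Type*} [AddCommGroup A] (φ : G → A) (T : G → Q → A)
    (hφ : ∀ g x, φ (g * x) - φ x = T g (f x)) (σ : κ → G)
    (hσ : Subgroup.closure (Set.range σ) = ⊤) (e : κ → ℕ) (he : ∀ k, σ k ^ e k ∈ commutator G)
    (hprod : ∏ k, e k = Fintype.card Q) (j : κ) : ∑ q, T (σ j) q = 0 := by
  classical
  choose η hη0 hη using fun k => L2 σ hσ _ (he k)
  set ν : κ → MonoidAlgebra ℤ G := fun k => ∑ i ∈ range (e k), of ℤ G (σ k) ^ i with hν
  have hνs : ∀ k, (of ℤ G (σ k) - 1) * ν k = of ℤ G (σ k ^ e k) - 1 := by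
    intro k
    rw [hν, map_pow]
    exact mul_geom_sum _ _
  have haν : ∀ k, aug G (ν k) = e k := by
    intro k
    rw [hν]
    simp only [map_sum, map_pow, aug_of]
    simp
  set μ : κ → κ → MonoidAlgebra ℤ G := fun k l => (if l = k then ν k else 0) - η k l with hμ
  have hrel : ∀ k, ∑ l, (of ℤ G (σ l) - 1) * μ k l = 0 := by
    intro k
    simp only [hμ, mul_sub, Finset.sum_sub_distrib, ← hη k, mul_ite, mul_zero]
    rw [Finset.sum_ite_eq' univ k]
    simp only [Finset.mem_univ, if_true]
    rw [hνs, sub_self]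
  set π := mapDomainRingHom ℤ f with hπ
  set M : Matrix κ κ (MonoidAlgebra ℤ Q) := fun k l => π (μ k l) with hM
  set D := M.det with hD
  have haugD : aug Q D = Fintype.card Q := by
    rw [hD, RingHom.map_det]
    have : (aug Q).mapMatrix M = Matrix.diagonal fun k => (e k : ℤ) := by
      ext k l
      rw [RingHom.mapMatrix_apply, Matrix.map_apply, Matrix.diagonal_apply]
      rw [hM]
      change aug Q (π (μ k l)) = _
      rw [hπ, aug_map]
      simp only [hμ, map_sub, hη0, sub_zero]
      by_cases h : l = k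
      · rw [if_pos h, if_pos h.symm, haν]
      · rw [if_neg h, if_neg (Ne.symm h), map_zero]
    rw [this, Matrix.det_diagonal]
    rw [← hprod]
    push_cast
    rfl
  have hs : ∀ j, (of ℤ Q (f (σ j)) - 1) = π (of ℤ G (σ j) - 1) := by
    intro j
    rw [map_sub, map_one, hπ]
    simp
  have hDs : ∀ j, D * (of ℤ Q (f (σ j)) - 1) = 0 := by
    have h0 : M.mulVec (fun l => of ℤ Q (f (σ l)) - 1) = 0 := by
      ext1 k
      rw [Matrix.mulVec, Pi.zero_apply, dotProduct]
      have := congrArg π (hrel k)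
      rw [map_sum, map_zero] at this
      rw [← this]
      refine Finset.sum_congr rfl fun l _ => ?_
      rw [map_mul, mul_comm, hs]
    have h1 := congrArg (M.adjugate.mulVec) h0
    rw [Matrix.mulVec_mulVec, Matrix.adjugate_mul, Matrix.mulVec_zero, Matrix.smul_mulVec,
      Matrix.one_mulVec] at h1
    intro j
    exact congrFun h1 j
  have hDq : ∀ q : Q, D * of ℤ Q q = D := by
    intro q
    obtain ⟨g, rfl⟩ := hf q
    have hg : g ∈ Subgroup.closure (Set.range σ) := by rw [hσ]; trivial
    induction hg using Subgroup.closure_induction with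
    | mem x hx =>
      obtain ⟨k, rfl⟩ := hx
      have := hDs k
      rw [mul_sub, mul_one, sub_eq_zero] at this
      exact this
    | one => rw [map_one, map_one, mul_one]
    | mul x y _ _ hx hy => rw [map_mul, map_mul, ← mul_assoc, hx, hy]
    | inv x _ hx =>
      have h1 : D * of ℤ Q (f x) * of ℤ Q (f x⁻¹) = D * of ℤ Q (f x⁻¹) := by rw [hx]
      rw [mul_assoc, ← map_mul, ← map_mul, mul_inv_cancel, map_one, map_one, mul_one] at h1
      exact h1.symm
  set N : MonoidAlgebra ℤ Q := ∑ q : Q, of ℤ Q q with hN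
  have hzN : ∀ z : MonoidAlgebra ℤ Q, z * N = aug Q z • N := by
    intro z
    induction z using induction_linear with
    | zero => simp
    | add x y hx hy => rw [add_mul, map_add, add_smul, hx, hy]
    | single m r =>
      rw [aug_single]
      have h1 : (single m r : MonoidAlgebra ℤ Q) = r • of ℤ Q m := by simp
      rw [h1, smul_mul_assoc]
      congr 1
      rw [hN, Finset.mul_sum]
      simp only [← map_mul]
      exact Fintype.sum_equiv (Equiv.mulLeft m) _ _ fun x => rfl
  have hDN : D = N := by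
    have h1 : D * N = (Fintype.card Q : ℤ) • D := by
      rw [hN, Finset.mul_sum, Finset.sum_congr rfl fun q _ => hDq q, Finset.sum_const,
        Finset.card_univ]
      simp
    have h2 : D * N = (Fintype.card Q : ℤ) • N := by rw [hzN, haugD]
    rw [h1] at h2
    have h3 : (Fintype.card Q : ℤ) ≠ 0 := by
      have : 0 < Fintype.card Q := Fintype.card_pos
      positivity
    apply MonoidAlgebra.coeff_injective
    have h4 := congrArg MonoidAlgebra.coeff h2
    ext q
    have h5 := DFunLike.congr_fun h4 q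
    simp only [MonoidAlgebra.coeff_smul, Finsupp.smul_apply, smul_eq_mul] at h5
    exact mul_left_cancel₀ h3 h5
  -- final computation
  choose lam hlam using fun (i : κ) (k : κ) =>
    show ∃ x : MonoidAlgebra ℤ G, π x = M.adjugate i k by
      have hsurj : Function.Surjective π := by
        intro z
        induction z using induction_linear with
        | zero => exact ⟨0, map_zero _⟩
        | add x y hx hy =>
          obtain ⟨a, ha⟩ := hx
          obtain ⟨b, hb⟩ := hy
          exact ⟨a + b, by rw [map_add, ha, hb]⟩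
        | single m r =>
          obtain ⟨g, rfl⟩ := hf m
          exact ⟨single g r, by rw [hπ]; simp⟩
      exact hsurj _
  have hfin : ∑ l, (of ℤ G (σ l) - 1) * (∑ k, μ k l * lam j k) = 0 := by
    simp only [Finset.mul_sum]
    rw [Finset.sum_comm]
    refine Finset.sum_eq_zero fun k _ => ?_
    simp only [← mul_assoc]
    rw [← Finset.sum_mul, hrel, zero_mul]
  have hπw : ∀ l, π (∑ k, μ k l * lam j k) = if l = j then D else 0 := by
    intro l
    have h1 : (M.adjugate * M) j l = (D • (1 : Matrix κ κ (MonoidAlgebra ℤ Q))) j l := by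
      rw [Matrix.adjugate_mul]
    rw [Matrix.mul_apply, Matrix.smul_apply, Matrix.one_apply] at h1
    rw [map_sum]
    have h2 : ∀ k, π (μ k l * lam j k) = M.adjugate j k * M k l := by
      intro k
      rw [map_mul, hlam, mul_comm]
    rw [Finset.sum_congr rfl fun k _ => h2 k, h1]
    by_cases h : l = j
    · rw [if_pos h, if_pos h.symm]; simp
    · rw [if_neg h, if_neg (Ne.symm h)]; simp
  have h0 := congrArg (ext φ) hfin
  rw [map_sum, map_zero] at h0
  rw [Finset.sum_congr rfl fun l _ => ext_sub_one_mul f φ T hφ (σ l) _] at h0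
  rw [Finset.sum_congr rfl fun l _ => by rw [← hπ, hπw l]] at h0
  rw [Finset.sum_eq_single j (fun b _ hb => by rw [if_neg hb, map_zero])
    (fun h => absurd (Finset.mem_univ j) h), if_pos rfl, hDN, hN, map_sum] at h0
  rw [← h0]
  refine Finset.sum_congr rfl fun q _ => ?_
  rw [ext_of]

end H75.PIT
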