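import Cfsg.Agent.Lib.H75.PIT

set_option linter.all false

namespace H75.PIT

open Finset

variable {G : Type*} [Group G] [Finite G]

theorem exists_gens : ∃ (ι : Type) (_ : Fintype ι) (_ : DecidableEq ι) (n : ι → ℕ) (s : ι → G),
    Subgroup.closure (Set.range s ∪ (commutator G : Set G)) = ⊤ ∧
    (∀ i, s i ^ n i ∈ commutator G) ∧ ∏ i, n i = Nat.card (Abelianization G) := by
  classical
  obtain ⟨ι, hι, n, hn, ⟨e⟩⟩ :=
    CommGroup.equiv_prod_multiplicative_zmod_of_finite (Abelianization G)
  have hsurj : Function.Surjective (Abelianization.of : G →* Abelianization G) :=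
    QuotientGroup.mk'_surjective _
  have hker : ∀ x : G, Abelianization.of x = 1 ↔ x ∈ commutator G := by
    intro x
    exact QuotientGroup.eq_one_iff x
  choose s hs using fun i => hsurj (e.symm (Pi.mulSingle i (Multiplicative.ofAdd 1)))
  refine ⟨ι, hι, inferInstance, n, s, ?_, ?_, ?_⟩
  · set C := Subgroup.closure (Set.range s ∪ (commutator G : Set G)) with hC
    have hHC : commutator G ≤ C := fun x hx => Subgroup.subset_closure (Or.inr hx)
    have hsC : ∀ i, s i ∈ C := fun i => Subgroup.subset_closure (Or.inl ⟨i, rfl⟩)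
    have hmap : ∀ y : (∀ i, Multiplicative (ZMod (n i))), e.symm y ∈ C.map Abelianization.of := by
      intro y
      rw [← Finset.univ_prod_mulSingle y, map_prod]
      refine Subgroup.prod_mem _ fun i _ => ?_
      have hne : NeZero (n i) := ⟨by have := hn i; omega⟩
      have h1 : Pi.mulSingle i (y i) =
          (Pi.mulSingle i (Multiplicative.ofAdd (1 : ZMod (n i))) :
            ∀ i, Multiplicative (ZMod (n i))) ^ (Multiplicative.toAdd (y i)).val := by
        rw [← Pi.mulSingle_pow]
        congr 1
        rw [← ofAdd_nsmul, nsmul_eq_mul, mul_one, ZMod.natCast_zmod_val]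
        rfl
      rw [h1, map_pow, ← hs]
      exact Subgroup.pow_mem _ (Subgroup.mem_map_of_mem _ (hsC i)) _
    rw [eq_top_iff]
    intro g _
    obtain ⟨c, hc, hcg⟩ := hmap (e (Abelianization.of g))
    rw [MulEquiv.symm_apply_apply] at hcg
    have h2 : c⁻¹ * g ∈ commutator G := by
      rw [← hker, map_mul, map_inv, hcg, inv_mul_cancel]
    have h3 := C.mul_mem hc (hHC h2)
    rwa [mul_inv_cancel_left] at h3
  · intro i
    rw [← hker, map_pow, hs, ← map_pow, ← Pi.mulSingle_pow, ← ofAdd_nsmul, nsmul_eq_mul, mul_one]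
    simp
  · rw [Nat.card_congr e.toEquiv, Nat.card_pi]
    refine Finset.prod_congr rfl fun i _ => ?_
    rw [Nat.card_congr Multiplicative.toAdd, Nat.card_zmod]

theorem transfer_trivial :
    MonoidHom.transfer (Abelianization.of : ↥(commutator G) →* Abelianization ↥(commutator G)) =
      (1 : G →* Abelianization ↥(commutator G)) := by
  classical
  obtain ⟨ι, hι, hd, n, s, hgen, hpow, hcard⟩ := exists_gens (G := G)
  letI : Fintype (Abelianization G) := Fintype.ofFinite _
  letI : Fintype (commutator G) := Fintype.ofFinite _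
  set σ : ι ⊕ commutator G → G := Sum.elim s (fun h => (h : G)) with hσ
  have hσgen : Subgroup.closure (Set.range σ) = ⊤ := by
    rw [← hgen]
    congr 1
    ext x
    constructor
    · rintro ⟨k, rfl⟩
      rcases k with i | h
      · exact Or.inl ⟨i, rfl⟩
      · exact Or.inr h.2
    · rintro (⟨i, rfl⟩ | h)
      · exact ⟨Sum.inl i, rfl⟩
      · exact ⟨Sum.inr ⟨x, h⟩, rfl⟩
  set e : ι ⊕ commutator G → ℕ := Sum.elim n (fun _ => 1) with he
  have hepow : ∀ k, σ k ^ e k ∈ commutator G := by
    intro k
    rcases k with i | h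
    · exact hpow i
    · simp only [hσ, he, Sum.elim_inr, pow_one]; exact h.2
  have hprod : ∏ k, e k = Fintype.card (Abelianization G) := by
    rw [Fintype.prod_sum_type]
    simp only [he, Sum.elim_inl, Sum.elim_inr, Finset.prod_const_one, mul_one]
    rw [hcard, Nat.card_eq_fintype_card]
  set α := (default : (commutator G).LeftTransversal).2.leftQuotientEquiv with hα
  set ρ : G ⧸ commutator G → G := fun q => (α q : G) with hρ
  have hρq : ∀ q : G ⧸ commutator G, ((ρ q : G) : G ⧸ commutator G) = q := by
    intro q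
    exact α.symm_apply_apply q
  have hmem : ∀ x : G, (ρ (x : G ⧸ commutator G))⁻¹ * x ∈ commutator G := by
    intro x
    rw [← QuotientGroup.eq]
    exact hρq _
  have hmem2 : ∀ (g : G) (q : G ⧸ commutator G), (ρ (g • q))⁻¹ * (g * ρ q) ∈ commutator G := by
    intro g q
    rw [← QuotientGroup.eq, hρq]
    conv_lhs => rw [← hρq q]
    rfl
  set φ : G → Additive (Abelianization (commutator G)) := fun x =>
    Additive.ofMul (Abelianization.of ⟨(ρ (x : G ⧸ commutator G))⁻¹ * x, hmem x⟩) with hφ
  have hT0 : ∃ T0 : G → G ⧸ commutator G → Additive (Abelianization (commutator G)),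
      ∀ g q, T0 g q = Additive.ofMul (Abelianization.of ⟨(ρ (g • q))⁻¹ * (g * ρ q),
      hmem2 g q⟩) := ⟨fun g q => _, fun _ _ => rfl⟩
  obtain ⟨T0, hT0⟩ := hT0
  set T : G → Abelianization G → Additive (Abelianization (commutator G)) := T0 with hT
  have hφT : ∀ g x, φ (g * x) - φ x = T g (Abelianization.of x) := by
    intro g x
    have e1 : T g (Abelianization.of x) = T g (x : G ⧸ commutator G) := rfl
    rw [e1, hT0]
    simp only [hφ]
    rw [← ofMul_div, ← map_div]
    congr 2
    apply Subtype.ext
    rw [Subgroup.coe_div, div_eq_mul_inv]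
    change (ρ ((g * x : G) : G ⧸ commutator G))⁻¹ * (g * x) * ((ρ (x : G ⧸ commutator G))⁻¹ * x)⁻¹ =
      (ρ (g • (x : G ⧸ commutator G)))⁻¹ * (g * ρ (x : G ⧸ commutator G))
    have : g • (x : G ⧸ commutator G) = ((g * x : G) : G ⧸ commutator G) := rfl
    rw [this]
    group
  have hkey := key (Abelianization.of : G →* Abelianization G) (QuotientGroup.mk'_surjective _)
    φ T hφT σ hσgen e hepow hprod
  have htr : ∀ g : G, Additive.ofMul (MonoidHom.transfer
      (Abelianization.of : ↥(commutator G) →* Abelianization ↥(commutator G)) g) =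
      ∑ q, T g q := by
    intro g
    rw [MonoidHom.transfer_def _ (default : (commutator G).LeftTransversal)]
    rw [Subgroup.leftTransversals.diff]
    rw [ofMul_prod]
    letI := (commutator G).fintypeQuotientOfFiniteIndex
    have := Fintype.sum_equiv (MulAction.toPerm g : Equiv.Perm (G ⧸ commutator G))
      (fun q => Additive.ofMul (Abelianization.of (⟨(ρ (g • q))⁻¹ * (g * ρ q),
        hmem2 g q⟩ : commutator G)))
      (fun q => Additive.ofMul (Abelianization.of (⟨(ρ q)⁻¹ * (g * ρ (g⁻¹ • q)), by
        have := hmem2 g (g⁻¹ • q)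
        rwa [smul_inv_smul] at this⟩ : commutator G))) ?_
    · convert this.symm using 1
      · refine Finset.sum_congr rfl fun q _ => ?_
        congr 2
        apply Subtype.ext
        simp only
        rw [Subgroup.smul_apply_eq_smul_apply_inv_smul]
        rfl
      · have h1 : ∑ q, T g q = ∑ q : G ⧸ commutator G, T0 g q := by
          apply Finset.sum_congr
          · ext q
            exact ⟨fun _ => Finset.mem_univ _, fun _ => Finset.mem_univ (α := Abelianization G) _⟩
          · intro q _; rfl
        rw [h1]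
        refine Finset.sum_congr rfl fun q _ => hT0 g q
    · intro q
      congr 2
      apply Subtype.ext
      simp [MulAction.toPerm_apply]
  refine MonoidHom.eq_of_eqOn_dense hσgen ?_
  rintro x ⟨k, rfl⟩
  have h1 := htr (σ k)
  rw [hkey k] at h1
  exact ofMul_eq_zero.mp h1

end H75.PIT
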