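import Cfsg.Agent.Lib.H75.FixCount
import Cfsg.Agent.Lib.H14.PrimeDegree3
import Cfsg.Agent.Lib.H14.PrimeSylow2
import Cfsg.Agent.Lib.H15.SharpPGL
import Cfsg.Agent.Lib.H6.SLCard

set_option autoImplicit false
set_option linter.all false

/-! Groups of prime degree `p` with a Sylow `p`-normalizer of order `2p`. -/

namespace H75.Pd2

open MulAction H75.FixCount Cfsg

section general

variable {G : Type*} [Group G] [Fintype G] {p : ℕ} [Fact p.Prime] {α : Type*} [MulAction G α] [Finite α]

/-- the basic counting identity: `σ` is the number of orbits on triples of distinct points -/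
theorem sum_reg (P : Sylow p G) (hP : Nat.card P = p)
    (hN : Nat.card (Subgroup.normalizer ((P : Subgroup G) : Set G)) = 2 * p)
    (hfix : ∀ g : G, orderOf g = p → fx α g = 0) (h2 : MulAction.IsMultiplyPretransitive G α 2)
    (hn : 2 ≤ Nat.card α) :
    (p : ℤ) * ∑ g ∈ Finset.univ.filter (fun g : G => orderOf g ≠ p),
      (((fx α g : ℤ) - 1) * ((fx α g : ℤ) - 2) * ((Nat.card α : ℤ) - fx α g)) =
      (Nat.card G : ℤ) * (Nat.card α - p * Nat.card (MulAction.orbitRel.Quotient G (Fin 3 ↪ α))) := by
  classical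
  haveI : MulAction.IsMultiplyPretransitive G α 2 := h2
  have e1 := sum_desc (G := G) (α := α) 1
  have e2 := sum_desc (G := G) (α := α) 2
  have e3 := sum_desc (G := G) (α := α) 3
  rw [card_orbits_of_trans (by omega) (MulAction.isMultiplyPretransitive_of_le (n := 2) (by norm_num)
    hn), one_mul] at e1
  rw [card_orbits_of_trans hn h2, one_mul] at e2
  set σ := Nat.card (MulAction.orbitRel.Quotient G (Fin 3 ↪ α)) with hσ
  set n := Nat.card α with hn'
  have z1 : ∑ g : G, (fx α g : ℤ) = Nat.card G := by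
    have : ∑ g : G, (((fx α g).descFactorial 1 : ℕ) : ℤ) = Nat.card G := by exact_mod_cast e1
    simpa using this
  have z2 : ∑ g : G, ((fx α g : ℤ) * (fx α g - 1)) = Nat.card G := by
    have : ∑ g : G, (((fx α g).descFactorial 2 : ℕ) : ℤ) = Nat.card G := by exact_mod_cast e2
    rw [← this]
    exact Finset.sum_congr rfl fun g _ => (desc_two _).symm
  have z3 : ∑ g : G, ((fx α g : ℤ) * (fx α g - 1) * (fx α g - 2)) = σ * Nat.card G := by
    have : ∑ g : G, (((fx α g).descFactorial 3 : ℕ) : ℤ) = σ * Nat.card G := by exact_mod_cast e3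
    rw [← this]
    exact Finset.sum_congr rfl fun g _ => (desc_three _).symm
  have hall : ∑ g : G, (((fx α g : ℤ) - 1) * ((fx α g : ℤ) - 2) * ((n : ℤ) - fx α g)) =
      Nat.card G * (n - σ) := by
    have h4 : ∀ g : G, ((fx α g : ℤ) - 1) * ((fx α g : ℤ) - 2) * ((n : ℤ) - fx α g) =
        n * ((fx α g : ℤ) * (fx α g - 1)) - 2 * n * (fx α g : ℤ) + 2 * n -
          (fx α g : ℤ) * (fx α g - 1) * (fx α g - 2) := by
      intro g; ring
    rw [Finset.sum_congr rfl fun g _ => h4 g, Finset.sum_sub_distrib, Finset.sum_add_distrib,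
      Finset.sum_sub_distrib, ← Finset.mul_sum, ← Finset.mul_sum, z1, z2, z3, Finset.sum_const,
      Finset.card_univ, ← Nat.card_eq_fintype_card]
    simp only [nsmul_eq_mul]
    ring
  have hT := card_order P hP
  rw [hN] at hT
  have hsplit := Finset.sum_filter_add_sum_filter_not (Finset.univ : Finset G) (fun g => orderOf g ≠ p)
    (fun g => ((fx α g : ℤ) - 1) * ((fx α g : ℤ) - 2) * ((n : ℤ) - fx α g))
  rw [hall] at hsplit
  have hrest : ∑ g ∈ Finset.univ.filter (fun g : G => ¬ orderOf g ≠ p),
      (((fx α g : ℤ) - 1) * ((fx α g : ℤ) - 2) * ((n : ℤ) - fx α g)) =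
      (Nat.card {g : G // orderOf g = p} : ℤ) * (2 * n) := by
    rw [Finset.sum_congr rfl (g := fun _ => (2 * n : ℤ)), Finset.sum_const, Nat.card_eq_fintype_card,
      Fintype.card_subtype]
    · simp only [not_not, nsmul_eq_mul]
    · intro g hg
      simp only [Finset.mem_filter, Finset.mem_univ, true_and, not_not] at hg
      rw [hfix g hg]
      push_cast
      ring
  rw [hrest] at hsplit
  have hT' : (Nat.card {g : G // orderOf g = p} : ℤ) * (2 * p) = ((p : ℤ) - 1) * Nat.card G := by
    have h5 : ((p - 1 : ℕ) : ℤ) = (p : ℤ) - 1 := by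
      have := (Fact.out : p.Prime).one_lt
      push_cast [Nat.cast_sub this.le]
      ring
    rw [← h5]
    exact_mod_cast hT
  have h6 := congrArg (fun x : ℤ => (p : ℤ) * x) hsplit
  simp only [mul_add] at h6
  have h7 : (p : ℤ) * ((Nat.card {g : G // orderOf g = p} : ℤ) * (2 * n)) = n * (((p : ℤ) - 1) * Nat.card G) := by
    rw [← hT']; ring
  rw [h7] at h6
  linear_combination h6

end general

section prime

variable {α : Type*} [Fintype α] [DecidableEq α] {p : ℕ} [Fact p.Prime]

theorem normal_of_solvable (hα : Fintype.card α = p) (G : Subgroup (Equiv.Perm α))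
    [MulAction.IsPretransitive G α] (hG : Group.IsSolvable G) (P : Sylow p G) : (P : Subgroup G).Normal := by
  have hPc := H14.PrimeSylow.sylow_card hα G P
  have hp : p.Prime := Fact.out
  haveI : Nontrivial G := by
    apply (Subgroup.nontrivial_iff_ne_bot G).mpr
    rintro rfl
    have := H14.PrimeSylow.dvd_card hα (⊥ : Subgroup (Equiv.Perm α))
    rw [Subgroup.card_bot, Nat.dvd_one] at this
    exact hp.one_lt.ne' this
  obtain ⟨r, hr, hcore⟩ := H1.Hall.exists_pCore_ne_bot hG
  haveI : Fact r.Prime := ⟨hr⟩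
  haveI := H14.PrimeSylow.transitive_of_normal hα G (pCore r G) inferInstance hcore
  obtain ⟨a⟩ : Nonempty α := by
    rw [← Fintype.card_pos_iff, hα]; exact hp.pos
  have h5 := MulAction.index_stabilizer_of_transitive (pCore r G) a
  rw [Nat.card_eq_fintype_card, hα] at h5
  have h6 : p ∣ Nat.card (pCore r G) := (dvd_of_eq h5.symm).trans (Subgroup.index_dvd_card _)
  obtain ⟨k, hk⟩ := (H1.Cores.isPGroup_pCore (G := G) r).exists_card_eq
  rw [hk] at h6
  have h7 : p = r := (Nat.prime_dvd_prime_iff_eq hp hr).mp (hp.dvd_of_dvd_pow h6)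
  subst h7
  have h8 : pCore p G = P := by
    apply Subgroup.eq_of_le_of_card_ge (H1.Cores.pCore_le_sylow P)
    rw [hPc]
    refine Nat.le_of_dvd Nat.card_pos ?_
    rw [hk]
    exact h6
  exact h8 ▸ inferInstance

theorem fx_order (hα : Fintype.card α = p) (G : Subgroup (Equiv.Perm α)) (g : G) (hg : orderOf g = p) :
    fx α g = 0 := by
  have hp : p.Prime := Fact.out
  have h1 : orderOf (g : Equiv.Perm α) = p := by rw [Subgroup.orderOf_coe, hg]
  obtain ⟨e, he⟩ := H14.PrimeDegree.exists_coord_of_orderOf hα h1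
  unfold fx
  rw [Nat.card_eq_zero]
  left
  constructor
  rintro ⟨a, ha⟩
  rw [MulAction.mem_fixedBy] at ha
  have h2 := he (e.symm a)
  rw [Equiv.apply_symm_apply] at h2
  have h3 : (g : Equiv.Perm α) a = a := ha
  rw [h3] at h2
  have h4 : e.symm a = e.symm a + 1 := by
    apply e.injective
    rw [Equiv.apply_symm_apply]
    exact h2
  have h5 : (1 : ZMod p) = 0 := by
    have := h4.symm
    rwa [add_eq_left] at this
  exact one_ne_zero h5

/-- the elements of order different from `p` fix one or two points -/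
theorem fx_cases (hα : Fintype.card α = p) (hp3 : 3 < p) (G : Subgroup (Equiv.Perm α))
    [MulAction.IsPretransitive G α] (P : Sylow p G) (hPn : ¬ (P : Subgroup G).Normal)
    (hN : Nat.card (Subgroup.normalizer ((P : Subgroup G) : Set G)) = 2 * p) :
    MulAction.IsMultiplyPretransitive G α 3 ∧ ∀ g : G, orderOf g ≠ p → g ≠ 1 → fx α g = 1 ∨ fx α g = 2 := by
  classical
  have hp : p.Prime := Fact.out
  have hG : ¬ Group.IsSolvable G := fun h => hPn (normal_of_solvable hα G h P)
  have h3 : MulAction.IsMultiplyPretransitive G α 3 :=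
    H14.PrimeDegree3.three_transitive hα G hG P (by rw [hN]; exact even_two_mul p)
  refine ⟨h3, ?_⟩
  have hcard : Nat.card α = p := by rw [Nat.card_eq_fintype_card, hα]
  have h2 : MulAction.IsMultiplyPretransitive G α 2 :=
    MulAction.isMultiplyPretransitive_of_le (n := 3) (by norm_num) (by rw [hcard]; omega)
  have hsum := sum_reg P (H14.PrimeSylow.sylow_card hα G P) hN (fx_order hα G) h2 (by rw [hcard]; omega)
  rw [card_orbits_of_trans (by rw [hcard]; omega) h3, hcard] at hsum
  simp only [Nat.cast_one, mul_one, sub_self, mul_zero] at hsum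
  have hp0 : (p : ℤ) ≠ 0 := by exact_mod_cast hp.ne_zero
  have hzero := (mul_eq_zero.1 hsum).resolve_left hp0
  have hnn : ∀ g ∈ Finset.univ.filter (fun g : G => orderOf g ≠ p),
      0 ≤ ((fx α g : ℤ) - 1) * ((fx α g : ℤ) - 2) * ((p : ℤ) - fx α g) := by
    intro g _
    have h4 : (fx α g : ℤ) ≤ p := by
      have := fx_le (α := α) g
      rw [hcard] at this
      exact_mod_cast this
    apply mul_nonneg _ (by omega)
    rcases Nat.lt_or_ge (fx α g) 2 with h5 | h5
    · have h6 : ((fx α g : ℤ) - 1) ≤ 0 := by omega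
      have h7 : ((fx α g : ℤ) - 2) ≤ 0 := by omega
      exact mul_nonneg_of_nonpos_of_nonpos h6 h7
    · have h6 : 0 ≤ ((fx α g : ℤ) - 1) := by omega
      have h7 : 0 ≤ ((fx α g : ℤ) - 2) := by omega
      exact mul_nonneg h6 h7
  rw [Finset.sum_eq_zero_iff_of_nonneg hnn] at hzero
  intro g hg hg1
  have h8 := hzero g (by simp [hg])
  have h9 : fx α g < p := by
    have := fx_lt (α := α) hg1
    rwa [hcard] at this
  rcases mul_eq_zero.1 h8 with h10 | h10
  · rcases mul_eq_zero.1 h10 with h11 | h11
    · left; omega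
    · right; omega
  · omega

theorem fx_ge {G : Type*} [Group G] [MulAction G α] {g : G} (s : Finset α) (hs : ∀ x ∈ s, g • x = x) : s.card ≤ fx α g := by
  unfold fx
  rw [← Nat.card_eq_finsetCard s]
  apply Nat.card_le_card_of_injective (fun x : s => (⟨x.1, hs x.1 x.2⟩ : fixedBy α g))
  intro x y h
  exact Subtype.ext (congrArg (fun z : fixedBy α g => (z : α)) h)

theorem sharp (hα : Fintype.card α = p) (hp3 : 3 < p) (G : Subgroup (Equiv.Perm α))
    [MulAction.IsPretransitive G α] (P : Sylow p G) (hPn : ¬ (P : Subgroup G).Normal)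
    (hN : Nat.card (Subgroup.normalizer ((P : Subgroup G) : Set G)) = 2 * p) :
    H15.Sharp3.Sharp G α := by
  classical
  obtain ⟨h3, hfx⟩ := fx_cases hα hp3 G P hPn hN
  constructor
  · intro g x y z hxy hxz hyz hx hy hz
    by_contra hg
    have h4 : ({x, y, z} : Finset α).card ≤ fx α g := by
      apply fx_ge
      intro w hw
      simp only [Finset.mem_insert, Finset.mem_singleton] at hw
      rcases hw with rfl | rfl | rfl
      · exact hx
      · exact hy
      · exact hz
    rw [Finset.card_eq_three.2 ⟨x, y, z, hxy, hxz, hyz, rfl⟩] at h4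
    by_cases ho : orderOf g = p
    · rw [fx_order hα G g ho] at h4
      omega
    · rcases hfx g ho hg with h | h <;> omega
  · intro x y z x' y' z' hxy hxz hyz hxy' hxz' hyz'
    haveI : MulAction.IsPretransitive G (Fin 3 ↪ α) := h3
    let t : Fin 3 ↪ α := ⟨![x, y, z], by
      intro i j hij
      fin_cases i <;> fin_cases j <;> simp_all⟩
    let t' : Fin 3 ↪ α := ⟨![x', y', z'], by
      intro i j hij
      fin_cases i <;> fin_cases j <;> simp_all⟩
    obtain ⟨g, hg⟩ := MulAction.exists_smul_eq G t t'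
    refine ⟨g, ?_, ?_, ?_⟩
    · exact congrArg (fun f : Fin 3 ↪ α => f 0) hg
    · exact congrArg (fun f : Fin 3 ↪ α => f 1) hg
    · exact congrArg (fun f : Fin 3 ↪ α => f 2) hg

/-- in characteristic two `PGL₂ = SL₂` -/
theorem pgl_equiv_sl {F : Type*} [Field F] [Fintype F] (h2 : (2 : F) = 0) :
    Nonempty (Matrix.ProjGenLinGroup (Fin 2) F ≃* Matrix.SpecialLinearGroup (Fin 2) F) := by
  have hinj : Function.Injective (Matrix.SpecialLinearGroup.toPGL : Matrix.SpecialLinearGroup (Fin 2) F →* _) := by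
    rw [← MonoidHom.ker_eq_bot_iff, Matrix.SpecialLinearGroup.toPGL_ker, eq_bot_iff]
    intro A hA
    rw [Matrix.SpecialLinearGroup.mem_center_iff] at hA
    obtain ⟨r, hr, hA⟩ := hA
    have h1 : r = 1 := by
      have h3 : (r - 1) * (r - 1) = 0 := by
        have : (r - 1) * (r - 1) = r ^ Fintype.card (Fin 2) + 1 - 2 * r := by
          rw [Fintype.card_fin]; ring
        rw [this, hr, h2]
        linear_combination h2
      have := mul_self_eq_zero.1 h3
      exact sub_eq_zero.1 this
    rw [Subgroup.mem_bot]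
    apply Subtype.ext
    rw [← hA, h1]
    simp
  haveI : Finite (Matrix.ProjGenLinGroup (Fin 2) F) := by
    apply Nat.finite_of_card_ne_zero
    rw [H6.SLCard.card_pgl]
    exact Nat.card_pos.ne'
  have hbij : Function.Bijective (Matrix.SpecialLinearGroup.toPGL : Matrix.SpecialLinearGroup (Fin 2) F →* _) := by
    rw [Nat.bijective_iff_injective_and_card]
    exact ⟨hinj, H6.SLCard.card_pgl.symm⟩
  exact ⟨(MulEquiv.ofBijective _ hbij).symm⟩

theorem main (hα : Fintype.card α = p) (hp2 : 2 < p) (G : Subgroup (Equiv.Perm α))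
    (P : Sylow p G) (hN : Nat.card (Subgroup.normalizer ((P : Subgroup G) : Set G)) = 2 * p) :
    (P : Subgroup G).Normal ∨ ∃ (a : ℕ) (F : Type) (_ : Field F) (_ : Fintype F), p = 2 ^ a + 1 ∧
      Fintype.card F = 2 ^ a ∧ Nonempty (G ≃* Matrix.SpecialLinearGroup (Fin 2) F) := by
  classical
  have hp : p.Prime := Fact.out
  have hpG : p ∣ Nat.card G := by
    have h1 : 2 * p ∣ Nat.card G := by rw [← hN]; exact Subgroup.card_subgroup_dvd_card _
    exact (Dvd.intro_left 2 rfl).trans h1
  obtain ⟨c, hc⟩ := exists_prime_orderOf_dvd_card' p hpG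
  obtain ⟨e, he⟩ := H14.PrimeDegree.exists_coord_of_orderOf hα (c := (c : Equiv.Perm α)) (by rw [Subgroup.orderOf_coe, hc])
  haveI : MulAction.IsPretransitive G α := by
    have hpow : ∀ (n : ℕ) (j : ZMod p), ((c : Equiv.Perm α) ^ n) (e j) = e (j + n) := by
      intro n
      induction n with
      | zero => intro j; simp
      | succ n ih =>
        intro j
        rw [pow_succ, Equiv.Perm.mul_apply, he, ih]
        congr 1
        push_cast
        ring
    refine ⟨fun x y => ⟨c ^ (e.symm y - e.symm x).val, ?_⟩⟩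
    show ((c ^ (e.symm y - e.symm x).val : G) : Equiv.Perm α) x = y
    rw [Subgroup.coe_pow]
    have h1 := hpow (e.symm y - e.symm x).val (e.symm x)
    rwa [ZMod.natCast_zmod_val, add_sub_cancel, Equiv.apply_symm_apply, Equiv.apply_symm_apply] at h1
  by_cases hPn : (P : Subgroup G).Normal
  · exact Or.inl hPn
  right
  have hp3 : 3 < p := by
    by_contra h
    have h3 : p = 3 := by omega
    apply hPn
    rw [← Subgroup.normalizer_eq_top_iff]
    apply Subgroup.eq_top_of_card_eq
    apply Nat.dvd_antisymm (Subgroup.card_subgroup_dvd_card _)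
    rw [hN, h3]
    have h4 := Subgroup.card_subgroup_dvd_card G
    rw [Nat.card_eq_fintype_card (α := Equiv.Perm α), Fintype.card_perm, hα, h3] at h4
    exact h4
  have hsh := sharp hα hp3 G P hPn hN
  obtain ⟨h3, hfx⟩ := fx_cases hα hp3 G P hPn hN
  have hcard : Nat.card α = p := by rw [Nat.card_eq_fintype_card, hα]
  obtain ⟨i, o, u, hio, hiu, hou⟩ : ∃ i o u : α, i ≠ o ∧ i ≠ u ∧ o ≠ u := by
    have := Fintype.two_lt_card_iff.1 (by rw [hα]; omega : 2 < Fintype.card α)
    exact this
  obtain ⟨s, hsi, hso, hsu⟩ := hsh.ex i o u o i u hio hiu hou hio.symm hou hiu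
  have hinv : ∀ w : G, w • i = o → w • o = i → w * w = 1 := by
    intro w hwi hwo
    have hw1 : w ≠ 1 := by
      rintro rfl
      rw [one_smul] at hwi
      exact hio hwi
    have hwo' : orderOf w ≠ p := by
      intro h
      have h5 : w * w ≠ 1 := by
        intro h6
        have h7 : orderOf w ∣ 2 := orderOf_dvd_of_pow_eq_one (by rw [pow_two, h6])
        rw [h] at h7
        have := Nat.le_of_dvd (by norm_num) h7
        omega
      have h6 : orderOf (w * w) = p := by
        rw [← pow_two, orderOf_pow, h]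
        have : Nat.gcd p 2 = 1 := by
          have : Nat.Coprime p 2 := (Nat.coprime_primes hp Nat.prime_two).2 (by omega)
          exact this
        rw [this, Nat.div_one]
      have h7 := fx_order hα G _ h6
      have h8 : ({i} : Finset α).card ≤ fx α (w * w) := by
        apply fx_ge
        intro x hx
        rw [Finset.mem_singleton] at hx
        subst hx
        rw [mul_smul, hwi, hwo]
      rw [Finset.card_singleton] at h8
      omega
    have hpos : 0 < fx α w := by rcases hfx w hwo' hw1 with h | h <;> omega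
    have hne : Nonempty (fixedBy α w) := by
      unfold fx at hpos
      exact (Nat.card_pos_iff.1 hpos).1
    obtain ⟨x, hx⟩ := hne
    rw [mem_fixedBy] at hx
    apply hsh.fix (w * w) i o x hio _ _ (by rw [mul_smul, hwi, hwo]) (by rw [mul_smul, hwo, hwi])
      (by rw [mul_smul, hx, hx])
    · rintro rfl
      exact hio (hx.symm.trans hwi)
    · rintro rfl
      exact hio (hwo.symm.trans hx)
  have hss : s * s = 1 := hinv s hsi hso
  obtain ⟨F, hF, hFf, hFc, ⟨φ⟩⟩ := H15.SharpPGL.main hsh i o u hio hiu hou s hsi hso hsu (by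
    intro h hhi hho
    have h5 := hinv (s * h) (by rw [mul_smul, hhi, hsi]) (by rw [mul_smul, hho, hso])
    have h6 : s⁻¹ = s := inv_eq_of_mul_eq_one_left hss
    rw [h6]
    apply eq_inv_of_mul_eq_one_left
    rw [← h5]
    simp only [mul_assoc])
  obtain ⟨n, hnp, hFn⟩ := FiniteField.card F (ringChar F)
  have hq2 : ringChar F = 2 := by
    have h5 : 2 ∣ Fintype.card F := by
      have h6 : Odd p := hp.odd_of_ne_two (by omega)
      obtain ⟨k, hk⟩ := h6
      refine ⟨k, ?_⟩
      rw [hα] at hFc
      omega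
    rw [hFn] at h5
    exact ((Nat.prime_dvd_prime_iff_eq Nat.prime_two hnp).1 (Nat.prime_two.dvd_of_dvd_pow h5)).symm
  rw [hq2] at hFn
  have h20 : (2 : F) = 0 := by
    have := ringChar.Nat.cast_ringChar (R := F)
    rw [hq2] at this
    exact_mod_cast this
  obtain ⟨ψ⟩ := pgl_equiv_sl h20
  exact ⟨n, F, hF, hFf, by rw [← hFn, hFc, hα], hFn, ⟨φ.trans ψ⟩⟩

end prime

end H75.Pd2
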